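import Cfsg.Agent.Lib.Plane4.Basic

/-!
# Arcs in projective planes of order 4: counting independent sets, hyperovals
-/

set_option autoImplicit false
set_option linter.unusedSectionVars false

namespace Cfsg.Agent.Lib.Plane4

open Finset

variable {α : Type*} [Fintype α] [DecidableEq α] {L : Set (Finset α)}

/-- `x` lies on a line through two points of `S`. -/
def Cov (L : Set (Finset α)) (S : Finset α) (x : α) : Prop :=
  ∃ s ∈ S, ∃ s' ∈ S, s ≠ s' ∧ x ∈ lineOf L s s'

theorem Indep.insert (h : Plane L) {S : Finset α} (hS : Indep L S) {x : α} (hx : ¬ Cov L S x) :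
    Indep L (insert x S) := by
  intro l hl
  by_cases hxl : x ∈ l
  · have h1 : (l ∩ S).card ≤ 1 := by
      by_contra hc
      push Not at hc
      obtain ⟨s, hs, s', hs', hne⟩ := one_lt_card.mp hc
      have hs1 := mem_inter.mp hs
      have hs2 := mem_inter.mp hs'
      apply hx
      refine ⟨s, hs1.2, s', hs2.2, hne, ?_⟩
      rw [h.lineOf_eq hne hl hs1.1 hs2.1]
      exact hxl
    rw [inter_insert_of_mem hxl]
    exact (card_insert_le _ _).trans (by omega)
  · rw [inter_insert_of_notMem hxl]
    exact hS l hl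

theorem not_cov_of_indep_insert (h : Plane L) {S : Finset α} {x : α} (hx : x ∉ S)
    (hI : Indep L (insert x S)) : ¬ Cov L S x := by
  rintro ⟨s, hs, s', hs', hne, hmem⟩
  refine Indep.not_mem_line h hI (mem_insert_of_mem hs) (mem_insert_of_mem hs') (mem_insert_self x S)
    hne ?_ ?_ hmem
  · rintro rfl; exact hx hs
  · rintro rfl; exact hx hs'

open Classical in
/-- The points covered by lines through two points of `S`. -/
noncomputable def covF (L : Set (Finset α)) (S : Finset α) : Finset α := univ.filter (Cov L S)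

theorem mem_covF {S : Finset α} {x : α} : x ∈ covF L S ↔ Cov L S x := by
  classical
  simp [covF]

theorem subset_covF (h : Plane L) {S : Finset α} (hS : 2 ≤ S.card) : S ⊆ covF L S := by
  intro x hx
  have : 1 < S.card := by omega
  obtain ⟨y, hy, hne⟩ := exists_mem_ne this x
  exact mem_covF.mpr ⟨x, hx, y, hy, hne.symm, h.left_mem hne.symm⟩

theorem covF_pair (h : Plane L) {a b : α} (hab : a ≠ b) : covF L {a, b} = lineOf L a b := by
  ext x
  rw [mem_covF]
  constructor
  · rintro ⟨s, hs, s', hs', hne, hx⟩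
    simp only [mem_insert, mem_singleton] at hs hs'
    rcases hs with rfl | rfl <;> rcases hs' with rfl | rfl
    · exact absurd rfl hne
    · exact hx
    · rwa [h.lineOf_comm hab]
    · exact absurd rfl hne
  · intro hx
    exact ⟨a, by simp, b, by simp, hab, hx⟩

theorem covF_triple (h : Plane L) {a b c : α} (hn : NC L a b c) :
    covF L {a, b, c} = lineOf L a b ∪ lineOf L a c ∪ lineOf L b c := by
  have hab := hn.ne1
  have hac := hn.ne2
  have hbc := hn.ne3
  ext x
  rw [mem_covF]
  simp only [mem_union]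
  constructor
  · rintro ⟨s, hs, s', hs', hne, hx⟩
    simp only [mem_insert, mem_singleton] at hs hs'
    rcases hs with rfl | rfl | rfl <;> rcases hs' with rfl | rfl | rfl
    · exact absurd rfl hne
    · exact Or.inl (Or.inl hx)
    · exact Or.inl (Or.inr hx)
    · rw [h.lineOf_comm hab.symm] at hx; exact Or.inl (Or.inl hx)
    · exact absurd rfl hne
    · exact Or.inr hx
    · rw [h.lineOf_comm hac.symm] at hx; exact Or.inl (Or.inr hx)
    · rw [h.lineOf_comm hbc.symm] at hx; exact Or.inr hx
    · exact absurd rfl hne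
  · rintro ((hx | hx) | hx)
    · exact ⟨a, by simp, b, by simp, hab, hx⟩
    · exact ⟨a, by simp, c, by simp, hac, hx⟩
    · exact ⟨b, by simp, c, by simp, hbc, hx⟩

theorem not_cov_quad_iff (h : Plane L) {a b c d x : α} (hA : Arc4 L a b c d) :
    ¬ Cov L {a, b, c, d} x ↔ x ∈ offSix L a b c d := by
  have hab := hA.abc.ne1
  have hac := hA.abc.ne2
  have had := hA.abd.ne2
  have hbc := hA.abc.ne3
  have hbd := hA.abd.ne3
  have hcd := hA.acd.ne3
  rw [mem_offSix]
  constructor
  · intro hc
    refine ⟨?_, ?_, ?_, ?_, ?_, ?_⟩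
    · exact fun hx => hc ⟨a, by simp, b, by simp, hab, hx⟩
    · exact fun hx => hc ⟨a, by simp, c, by simp, hac, hx⟩
    · exact fun hx => hc ⟨a, by simp, d, by simp, had, hx⟩
    · exact fun hx => hc ⟨b, by simp, c, by simp, hbc, hx⟩
    · exact fun hx => hc ⟨b, by simp, d, by simp, hbd, hx⟩
    · exact fun hx => hc ⟨c, by simp, d, by simp, hcd, hx⟩
  · rintro ⟨h1, h2, h3, h4, h5, h6⟩ ⟨s, hs, s', hs', hne, hx⟩
    simp only [mem_insert, mem_singleton] at hs hs'
    rcases hs with rfl | rfl | rfl | rfl <;> rcases hs' with rfl | rfl | rfl | rfl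
    · exact hne rfl
    · exact h1 hx
    · exact h2 hx
    · exact h3 hx
    · rw [h.lineOf_comm hab.symm] at hx; exact h1 hx
    · exact hne rfl
    · exact h4 hx
    · exact h5 hx
    · rw [h.lineOf_comm hac.symm] at hx; exact h2 hx
    · rw [h.lineOf_comm hbc.symm] at hx; exact h4 hx
    · exact hne rfl
    · exact h6 hx
    · rw [h.lineOf_comm had.symm] at hx; exact h3 hx
    · rw [h.lineOf_comm hbd.symm] at hx; exact h5 hx
    · rw [h.lineOf_comm hcd.symm] at hx; exact h6 hx
    · exact hne rfl

theorem arc4_of_indep (h : Plane L) {a b c d : α} (hab : a ≠ b) (hac : a ≠ c) (had : a ≠ d)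
    (hbc : b ≠ c) (hbd : b ≠ d) (hcd : c ≠ d) (hI : Indep L {a, b, c, d}) : Arc4 L a b c d := by
  refine ⟨⟨hab, hac, hbc, ?_⟩, ⟨hab, had, hbd, ?_⟩, ⟨hac, had, hcd, ?_⟩, ⟨hbc, hbd, hcd, ?_⟩⟩
  · exact Indep.not_mem_line h hI (by simp) (by simp) (by simp) hab hac hbc
  · exact Indep.not_mem_line h hI (by simp) (by simp) (by simp) hab had hbd
  · exact Indep.not_mem_line h hI (by simp) (by simp) (by simp) hac had hcd
  · exact Indep.not_mem_line h hI (by simp) (by simp) (by simp) hbc hbd hcd

theorem indep_of_arc4 (h : Plane L) {a b c d : α} (hA : Arc4 L a b c d) : Indep L {a, b, c, d} := by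
  intro l hl
  by_contra hc
  push Not at hc
  obtain ⟨x, hx, y, hy, z, hz, hxy, hxz, hyz⟩ := two_lt_card.mp hc
  have hx' := mem_inter.mp hx
  have hy' := mem_inter.mp hy
  have hz' := mem_inter.mp hz
  have col : ∀ {p q r : α}, NC L p q r → p ∈ l → q ∈ l → r ∈ l → False := by
    intro p q r hn hp hq hr
    apply hn.nm
    rw [h.lineOf_eq hn.ne1 hl hp hq]
    exact hr
  have n1 : ¬ (a ∈ l ∧ b ∈ l ∧ c ∈ l) := fun hh => col hA.abc hh.1 hh.2.1 hh.2.2
  have n2 : ¬ (a ∈ l ∧ b ∈ l ∧ d ∈ l) := fun hh => col hA.abd hh.1 hh.2.1 hh.2.2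
  have n3 : ¬ (a ∈ l ∧ c ∈ l ∧ d ∈ l) := fun hh => col hA.acd hh.1 hh.2.1 hh.2.2
  have n4 : ¬ (b ∈ l ∧ c ∈ l ∧ d ∈ l) := fun hh => col hA.bcd hh.1 hh.2.1 hh.2.2
  obtain ⟨hxl, hxS⟩ := hx'
  obtain ⟨hyl, hyS⟩ := hy'
  obtain ⟨hzl, hzS⟩ := hz'
  simp only [mem_insert, mem_singleton] at hxS hyS hzS
  rcases hxS with rfl | rfl | rfl | rfl <;> rcases hyS with rfl | rfl | rfl | rfl <;>
    rcases hzS with rfl | rfl | rfl | rfl <;>
    first
    | exact hxy rfl
    | exact hxz rfl
    | exact hyz rfl
    | exact n1 ⟨by assumption, by assumption, by assumption⟩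
    | exact n2 ⟨by assumption, by assumption, by assumption⟩
    | exact n3 ⟨by assumption, by assumption, by assumption⟩
    | exact n4 ⟨by assumption, by assumption, by assumption⟩

/-- A 4-set as four named points. -/
theorem exists_four {S : Finset α} (hS : S.card = 4) : ∃ a b c d, a ≠ b ∧ a ≠ c ∧ a ≠ d ∧ b ≠ c ∧
    b ≠ d ∧ c ≠ d ∧ S = {a, b, c, d} := by
  obtain ⟨a, T, ha, rfl, hT⟩ := card_eq_succ.mp hS
  obtain ⟨b, c, d, hbc, hbd, hcd, rfl⟩ := card_eq_three.mp hT
  simp only [mem_insert, mem_singleton, not_or] at ha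
  exact ⟨a, b, c, d, ha.1, ha.2.1, ha.2.2, hbc, hbd, hcd, rfl⟩

theorem Plane.not_collinear_cov (h : Plane L) {S : Finset α} (hS : S.card = 4) (hI : Indep L S)
    {s : α} (hs : s ∈ S) {u v : α} (hu : ¬ Cov L S u) (hv : ¬ Cov L S v) (huv : u ≠ v) :
    s ∉ lineOf L u v := by
  have h3 : (S.erase s).card = 3 := by rw [card_erase_of_mem hs, hS]
  obtain ⟨x, y, z, hxy, hxz, hyz, he⟩ := card_eq_three.mp h3
  have hS2 : S = {s, x, y, z} := by rw [← he, insert_erase hs]
  have hx : x ∈ S.erase s := by rw [he]; simp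
  have hy : y ∈ S.erase s := by rw [he]; simp
  have hz : z ∈ S.erase s := by rw [he]; simp
  have hsx : s ≠ x := (ne_of_mem_erase hx).symm
  have hsy : s ≠ y := (ne_of_mem_erase hy).symm
  have hsz : s ≠ z := (ne_of_mem_erase hz).symm
  subst hS2
  have hA := arc4_of_indep h hsx hsy hsz hxy hxz hyz hI
  exact h.not_collinear_off hA ((not_cov_quad_iff h hA).mp hu) ((not_cov_quad_iff h hA).mp hv) huv

/-- Extension of a 4-arc to a hyperoval, with uniqueness. -/
theorem Plane.exists_unique_hyperoval (h : Plane L) {S : Finset α} (hS : S.card = 4)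
    (hI : Indep L S) : ∃! H : Finset α, (H.card = 6 ∧ Indep L H) ∧ S ⊆ H := by
  obtain ⟨a, b, c, d, hab, hac, had, hbc, hbd, hcd, rfl⟩ := exists_four hS
  have hA := arc4_of_indep h hab hac had hbc hbd hcd hI
  have hoff := h.card_offSix hA
  obtain ⟨u, v, huv, hoffe⟩ := card_eq_two.mp hoff
  have hu : u ∈ offSix L a b c d := by rw [hoffe]; simp
  have hv : v ∈ offSix L a b c d := by rw [hoffe]; simp
  set S : Finset α := {a, b, c, d} with hSdef
  have hSc : 2 ≤ S.card := by omega
  have hnotS : ∀ {x : α}, ¬ Cov L S x → x ∉ S := by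
    intro x hx hxS
    exact hx (mem_covF.mp (subset_covF h hSc hxS))
  have huC : ¬ Cov L S u := (not_cov_quad_iff h hA).mpr hu
  have hvC : ¬ Cov L S v := (not_cov_quad_iff h hA).mpr hv
  have huS := hnotS huC
  have hvS := hnotS hvC
  have hI1 : Indep L (insert u S) := Indep.insert h hI huC
  -- v is not covered by insert u S
  have hvnc : ∀ s ∈ S, v ∉ lineOf L u s := by
    intro s hs hm
    have hus : u ≠ s := fun he => huS (he ▸ hs)
    have hsl : s ∈ lineOf L u v := by
      rw [h.lineOf_eq huv (h.lineOf_mem hus) (h.left_mem hus) hm]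
      exact h.right_mem hus
    exact h.not_collinear_cov hS hI hs huC hvC huv hsl
  have hvC1 : ¬ Cov L (insert u S) v := by
    rintro ⟨s, hs, s', hs', hne, hx⟩
    rcases mem_insert.mp hs with rfl | hs1
    · rcases mem_insert.mp hs' with rfl | hs2
      · exact hne rfl
      · exact hvnc s' hs2 hx
    · rcases mem_insert.mp hs' with rfl | hs2
      · rw [h.lineOf_comm hne] at hx
        exact hvnc s hs1 hx
      · exact hvC ⟨s, hs1, s', hs2, hne, hx⟩
  have hI2 : Indep L (insert v (insert u S)) := Indep.insert h hI1 hvC1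
  have hcard6 : (insert v (insert u S)).card = 6 := by
    rw [card_insert_of_notMem, card_insert_of_notMem huS, hS]
    simp [huv.symm, hvS]
  refine ⟨insert v (insert u S), ⟨⟨hcard6, hI2⟩, ?_⟩, ?_⟩
  · intro x hx
    exact mem_insert_of_mem (mem_insert_of_mem hx)
  · rintro H' ⟨⟨hc', hI'⟩, hsub⟩
    -- H' \ S lies off the six lines
    have hsubO : H' \ S ⊆ offSix L a b c d := by
      intro x hx
      obtain ⟨hx1, hx2⟩ := mem_sdiff.mp hx
      rw [← not_cov_quad_iff h hA]
      rintro ⟨s, hs, s', hs', hne, hxl⟩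
      have hxs : s ≠ x := fun he => hx2 (he ▸ hs)
      have hxs' : s' ≠ x := fun he => hx2 (he ▸ hs')
      exact Indep.not_mem_line h hI' (hsub hs) (hsub hs') hx1 hne hxs hxs' hxl
    have hcd2 : (H' \ S).card = 2 := by
      rw [card_sdiff_of_subset hsub, hc', hS]
    have heq : H' \ S = offSix L a b c d :=
      Finset.eq_of_subset_of_card_le hsubO (by rw [hcd2, hoff])
    apply Finset.eq_of_subset_of_card_le
    · intro x hx
      by_cases hxS : x ∈ S
      · exact mem_insert_of_mem (mem_insert_of_mem hxS)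
      · have : x ∈ offSix L a b c d := by
          rw [← heq]
          exact mem_sdiff.mpr ⟨hx, hxS⟩
        rw [hoffe] at this
        simp only [mem_insert, mem_singleton] at this
        rcases this with rfl | rfl
        · exact mem_insert_of_mem (mem_insert_self _ _)
        · exact mem_insert_self _ _
    · rw [hcard6, hc']

/-! ### Counting -/

/-- Double counting for the inclusion relation. -/
theorem count_step {A B : Finset (Finset α)} {n k : ℕ}
    (hA : ∀ S ∈ A, (B.filter (S ⊆ ·)).card = n) (hB : ∀ T ∈ B, (A.filter (· ⊆ T)).card = k) :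
    A.card * n = B.card * k := by
  have := Finset.sum_card_bipartiteAbove_eq_sum_card_bipartiteBelow
    (s := A) (t := B) (fun S T => S ⊆ T)
  simp only [bipartiteAbove, bipartiteBelow] at this
  rw [Finset.sum_congr rfl hA, Finset.sum_congr rfl hB, Finset.sum_const, Finset.sum_const,
    smul_eq_mul, smul_eq_mul] at this
  exact this

open Classical in
/-- Independent sets of a given size. -/
noncomputable def indepF (L : Set (Finset α)) (k : ℕ) : Finset (Finset α) :=
  (powersetCard k univ).filter (Indep L)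

theorem mem_indepF {k : ℕ} {S : Finset α} : S ∈ indepF L k ↔ S.card = k ∧ Indep L S := by
  classical
  simp [indepF, mem_powersetCard]

/-- All `k`-subsets of an independent set are independent. -/
theorem filter_indep_subset {k m : ℕ} {T : Finset α} (hT : T ∈ indepF L m) :
    ((indepF L k).filter (· ⊆ T)).card = m.choose k := by
  classical
  have hT' := mem_indepF.mp hT
  have : (indepF L k).filter (· ⊆ T) = powersetCard k T := by
    ext S
    simp only [mem_filter, mem_indepF, mem_powersetCard]
    constructor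
    · rintro ⟨⟨h1, -⟩, h2⟩
      exact ⟨h2, h1⟩
    · rintro ⟨h1, h2⟩
      exact ⟨⟨h2, hT'.2.subset h1⟩, h1⟩
  rw [this, card_powersetCard, hT'.1]

/-- The sets of size one bigger containing `S` correspond to the uncovered points. -/
theorem filter_indep_super (h : Plane L) {k : ℕ} {S : Finset α} (hS : S ∈ indepF L k) (hk : 2 ≤ k) :
    ((indepF L (k + 1)).filter (S ⊆ ·)).card = 21 - (covF L S).card := by
  classical
  have hS' := mem_indepF.mp hS
  have hSsub := subset_covF h (S := S) (by rw [hS'.1]; exact hk)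
  have hcard : (univ \ covF L S).card = 21 - (covF L S).card := by
    rw [card_sdiff_of_subset (subset_univ _), card_univ, h.card]
  rw [← hcard]
  symm
  apply Finset.card_bij (fun x _ => insert x S)
  · intro x hx
    have hx1 : ¬ Cov L S x := fun hc => (mem_sdiff.mp hx).2 (mem_covF.mpr hc)
    have hxS : x ∉ S := fun hxs => (mem_sdiff.mp hx).2 (hSsub hxs)
    refine mem_filter.mpr ⟨mem_indepF.mpr ⟨?_, Indep.insert h hS'.2 hx1⟩, subset_insert _ _⟩
    rw [card_insert_of_notMem hxS, hS'.1]
  · intro x hx y hy hxy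
    have hxS : x ∉ S := fun hxs => (mem_sdiff.mp hx).2 (hSsub hxs)
    have : x ∈ insert y S := by
      rw [← hxy]
      exact mem_insert_self _ _
    rcases mem_insert.mp this with h1 | h1
    · exact h1
    · exact absurd h1 hxS
  · intro T hT
    obtain ⟨hT1, hT2⟩ := mem_filter.mp hT
    obtain ⟨hT3, hT4⟩ := mem_indepF.mp hT1
    have hc : (T \ S).card = 1 := by
      rw [card_sdiff_of_subset hT2, hT3, hS'.1]
      omega
    obtain ⟨x, hx⟩ := card_eq_one.mp hc
    have hxT : x ∈ T \ S := by rw [hx]; simp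
    have hxT' := mem_sdiff.mp hxT
    have hTe : T = insert x S := by
      ext y
      rw [mem_insert]
      constructor
      · intro hy
        by_cases hyS : y ∈ S
        · exact Or.inr hyS
        · left
          have : y ∈ T \ S := mem_sdiff.mpr ⟨hy, hyS⟩
          rw [hx] at this
          exact mem_singleton.mp this
      · rintro (rfl | hy)
        · exact hxT'.1
        · exact hT2 hy
    refine ⟨x, ?_, hTe.symm⟩
    refine mem_sdiff.mpr ⟨mem_univ _, fun hxc => ?_⟩
    rw [hTe] at hT4
    exact not_cov_of_indep_insert h hxT'.2 hT4 (mem_covF.mp hxc)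

theorem Plane.card_indep2 (h : Plane L) : (indepF L 2).card = 210 := by
  classical
  have : indepF L 2 = powersetCard 2 univ := by
    ext S
    rw [mem_indepF, mem_powersetCard]
    constructor
    · rintro ⟨h1, -⟩
      exact ⟨subset_univ _, h1⟩
    · rintro ⟨-, h1⟩
      refine ⟨h1, fun l _ => ?_⟩
      rw [← h1]
      exact card_le_card inter_subset_right
  rw [this, card_powersetCard, card_univ, h.card]
  decide

theorem Plane.card_indep3 (h : Plane L) : (indepF L 3).card = 1120 := by
  classical
  have h1 : (indepF L 2).card * 16 = (indepF L 3).card * 3 := by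
    apply count_step
    · intro S hS
      rw [filter_indep_super h hS (le_refl _)]
      obtain ⟨hc, -⟩ := mem_indepF.mp hS
      obtain ⟨a, b, hab, rfl⟩ := card_eq_two.mp hc
      rw [covF_pair h hab, h.card_line (h.lineOf_mem hab)]
    · intro T hT
      rw [filter_indep_subset hT]
      rfl
  rw [h.card_indep2] at h1
  omega

theorem Plane.card_indep4 (h : Plane L) : (indepF L 4).card = 2520 := by
  classical
  have h1 : (indepF L 3).card * 9 = (indepF L 4).card * 4 := by
    apply count_step
    · intro S hS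
      rw [filter_indep_super h hS (by norm_num)]
      obtain ⟨hc, hI⟩ := mem_indepF.mp hS
      obtain ⟨a, b, c, hab, hac, hbc, rfl⟩ := card_eq_three.mp hc
      have hn : NC L a b c :=
        ⟨hab, hac, hbc, Indep.not_mem_line h hI (by simp) (by simp) (by simp) hab hac hbc⟩
      rw [covF_triple h hn, h.card_triangle hn]
    · intro T hT
      rw [filter_indep_subset hT]
      rfl
  rw [h.card_indep3] at h1
  omega

theorem Plane.card_indep6 (h : Plane L) : (indepF L 6).card = 168 := by
  classical
  have h1 : (indepF L 4).card * 1 = (indepF L 6).card * 15 := by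
    apply count_step
    · intro S hS
      obtain ⟨hc, hI⟩ := mem_indepF.mp hS
      obtain ⟨H, ⟨⟨h1, h2⟩, h3⟩, h4⟩ := h.exists_unique_hyperoval hc hI
      rw [card_eq_one]
      refine ⟨H, ?_⟩
      ext T
      simp only [mem_filter, mem_indepF, mem_singleton]
      constructor
      · rintro ⟨⟨h5, h6⟩, h7⟩
        exact h4 T ⟨⟨h5, h6⟩, h7⟩
      · rintro rfl
        exact ⟨⟨h1, h2⟩, h3⟩
    · intro T hT
      rw [filter_indep_subset hT]
      rfl
  rw [h.card_indep4] at h1
  omega

end Cfsg.Agent.Lib.Plane4
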