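import Mathlib
import Cfsg.Prelude.Def_Sporadic_a

/-!
# Projective planes of order 4 as Steiner systems S(2,5,21)
Basic incidence: lines through a point (5), number of lines (21), two lines meet in one point.
-/

set_option autoImplicit false
set_option linter.unusedSectionVars false

namespace Cfsg.Agent.Lib.Plane4

open Finset

variable {α : Type*} [Fintype α] [DecidableEq α]

/-- A plane of order 4. -/
structure Plane (L : Set (Finset α)) : Prop where
  card : Fintype.card α = 21
  steiner : Cfsg.IsSteinerSystem 2 5 L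

variable {L : Set (Finset α)}

theorem Plane.card_line (h : Plane L) {l : Finset α} (hl : l ∈ L) : l.card = 5 := h.steiner.1 l hl

theorem Plane.exists_line (h : Plane L) {x y : α} (hxy : x ≠ y) : ∃ l ∈ L, x ∈ l ∧ y ∈ l := by
  obtain ⟨b, ⟨hb, hs⟩, -⟩ := h.steiner.2 {x, y} (card_pair hxy)
  exact ⟨b, hb, hs (by simp), hs (by simp)⟩

theorem Plane.line_unique (h : Plane L) {x y : α} (hxy : x ≠ y) {l m : Finset α} (hl : l ∈ L)
    (hm : m ∈ L) (hxl : x ∈ l) (hyl : y ∈ l) (hxm : x ∈ m) (hym : y ∈ m) : l = m := by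
  obtain ⟨b, -, hu⟩ := h.steiner.2 {x, y} (card_pair hxy)
  have h1 : l = b := hu l ⟨hl, by
    intro t ht
    simp only [mem_insert, mem_singleton] at ht
    rcases ht with rfl | rfl <;> assumption⟩
  have h2 : m = b := hu m ⟨hm, by
    intro t ht
    simp only [mem_insert, mem_singleton] at ht
    rcases ht with rfl | rfl <;> assumption⟩
  rw [h1, h2]

open Classical in
/-- The line through two points. -/
noncomputable def lineOf (L : Set (Finset α)) (x y : α) : Finset α :=
  if hh : ∃ l, l ∈ L ∧ x ∈ l ∧ y ∈ l then hh.choose else ∅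

theorem Plane.lineOf_spec (h : Plane L) {x y : α} (hxy : x ≠ y) :
    lineOf L x y ∈ L ∧ x ∈ lineOf L x y ∧ y ∈ lineOf L x y := by
  have hh : ∃ l, l ∈ L ∧ x ∈ l ∧ y ∈ l := by
    obtain ⟨l, a, b, c⟩ := h.exists_line hxy
    exact ⟨l, a, b, c⟩
  rw [lineOf, dif_pos hh]
  exact hh.choose_spec

theorem Plane.lineOf_mem (h : Plane L) {x y : α} (hxy : x ≠ y) : lineOf L x y ∈ L :=
  (h.lineOf_spec hxy).1

theorem Plane.left_mem (h : Plane L) {x y : α} (hxy : x ≠ y) : x ∈ lineOf L x y :=
  (h.lineOf_spec hxy).2.1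

theorem Plane.right_mem (h : Plane L) {x y : α} (hxy : x ≠ y) : y ∈ lineOf L x y :=
  (h.lineOf_spec hxy).2.2

theorem Plane.lineOf_eq (h : Plane L) {x y : α} (hxy : x ≠ y) {l : Finset α} (hl : l ∈ L)
    (hx : x ∈ l) (hy : y ∈ l) : lineOf L x y = l :=
  h.line_unique hxy (h.lineOf_mem hxy) hl (h.left_mem hxy) (h.right_mem hxy) hx hy

theorem Plane.lineOf_comm (h : Plane L) {x y : α} (hxy : x ≠ y) : lineOf L x y = lineOf L y x :=
  h.lineOf_eq hxy (h.lineOf_mem hxy.symm) (h.right_mem hxy.symm) (h.left_mem hxy.symm)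

open Classical in
/-- The finset of lines. -/
noncomputable def linesF (L : Set (Finset α)) : Finset (Finset α) := univ.filter (· ∈ L)

theorem mem_linesF {l : Finset α} : l ∈ linesF L ↔ l ∈ L := by
  classical
  simp [linesF]

open Classical in
/-- Lines through a point. -/
noncomputable def thru (L : Set (Finset α)) (x : α) : Finset (Finset α) :=
  (linesF L).filter (x ∈ ·)

theorem mem_thru {x : α} {l : Finset α} : l ∈ thru L x ↔ l ∈ L ∧ x ∈ l := by
  classical
  simp [thru, mem_linesF]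

theorem Plane.card_thru (h : Plane L) (x : α) : (thru L x).card = 5 := by
  classical
  have hU : (thru L x).biUnion (fun l => l.erase x) = univ.erase x := by
    ext y
    simp only [mem_biUnion, mem_erase, mem_univ, and_true, mem_thru]
    constructor
    · rintro ⟨l, -, hyx, -⟩
      exact hyx
    · intro hy
      obtain ⟨l, hl, hxl, hyl⟩ := h.exists_line (Ne.symm hy)
      exact ⟨l, ⟨hl, hxl⟩, hy, hyl⟩
  have hdis : ∀ l ∈ thru L x, ∀ m ∈ thru L x, l ≠ m → Disjoint (l.erase x) (m.erase x) := by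
    intro l hl m hm hne
    rw [Finset.disjoint_left]
    intro y hy hy'
    have hl' := mem_thru.mp hl
    have hm' := mem_thru.mp hm
    have hy1 := mem_erase.mp hy
    have hy2 := mem_erase.mp hy'
    exact hne (h.line_unique (Ne.symm hy1.1) hl'.1 hm'.1 hl'.2 hy1.2 hm'.2 hy2.2)
  have hc := Finset.card_biUnion hdis
  rw [hU] at hc
  have h4 : ∀ l ∈ thru L x, (l.erase x).card = 4 := by
    intro l hl
    have hl' := mem_thru.mp hl
    rw [card_erase_of_mem hl'.2, h.card_line hl'.1]
  rw [Finset.sum_congr rfl h4, Finset.sum_const, smul_eq_mul, card_erase_of_mem (mem_univ x),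
    card_univ, h.card] at hc
  omega

theorem Plane.card_lines (h : Plane L) : (linesF L).card = 21 := by
  classical
  have h1 : ∑ x : α, (thru L x).card = ∑ l ∈ linesF L, l.card := by
    have := Finset.sum_card_bipartiteAbove_eq_sum_card_bipartiteBelow
      (s := (univ : Finset α)) (t := linesF L) (fun x l => x ∈ l)
    simp only [bipartiteAbove, bipartiteBelow] at this
    rw [show ∑ x : α, (thru L x).card = ∑ x : α, ((linesF L).filter (x ∈ ·)).card from rfl, this]
    refine Finset.sum_congr rfl fun l _ => ?_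
    congr 1
    ext x
    simp
  have h2 : ∀ x ∈ (univ : Finset α), (thru L x).card = 5 := fun x _ => h.card_thru x
  have h3 : ∀ l ∈ linesF L, l.card = 5 := fun l hl => h.card_line (mem_linesF.mp hl)
  rw [Finset.sum_congr rfl h2, Finset.sum_congr rfl h3, Finset.sum_const, Finset.sum_const,
    smul_eq_mul, smul_eq_mul, card_univ, h.card] at h1
  omega

/-- Two lines meet. -/
theorem Plane.exists_meet (h : Plane L) {l m : Finset α} (hl : l ∈ L) (hm : m ∈ L) :
    ∃ x, x ∈ l ∧ x ∈ m := by
  classical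
  by_contra hcon
  push Not at hcon
  obtain ⟨x, hx⟩ : m.Nonempty := by
    rw [← card_pos, h.card_line hm]; norm_num
  have hxl : x ∉ l := fun hh => hcon x hh hx
  have hne : ∀ y ∈ l, x ≠ y := fun y hy hxy => hxl (hxy ▸ hy)
  -- the lines from x to points of l
  let F : α → Finset α := fun y => lineOf L x y
  have hinj : Set.InjOn F (l : Set α) := by
    intro y hy y' hy' hyy
    by_contra hne'
    have h1 : F y = l := by
      apply h.line_unique hne' (h.lineOf_mem (hne y hy)) hl (h.right_mem (hne y hy)) ?_ hy hy'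
      show y' ∈ lineOf L x y
      have : lineOf L x y = lineOf L x y' := hyy
      rw [this]
      exact h.right_mem (hne y' hy')
    exact hxl (h1 ▸ h.left_mem (hne y hy))
  have him : l.image F ⊆ thru L x := by
    intro t ht
    obtain ⟨y, hy, rfl⟩ := mem_image.mp ht
    exact mem_thru.mpr ⟨h.lineOf_mem (hne y hy), h.left_mem (hne y hy)⟩
  have hcard : (l.image F).card = 5 := by
    rw [card_image_of_injOn hinj, h.card_line hl]
  have heq : l.image F = thru L x :=
    Finset.eq_of_subset_of_card_le him (by rw [hcard, h.card_thru])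
  have hmt : m ∈ thru L x := mem_thru.mpr ⟨hm, hx⟩
  rw [← heq] at hmt
  obtain ⟨y, hy, hFy⟩ := mem_image.mp hmt
  have : y ∈ m := by
    rw [← hFy]
    exact h.right_mem (hne y hy)
  exact hcon y hy this

/-- Two distinct lines meet in exactly the given point. -/
theorem Plane.inter_eq (h : Plane L) {l m : Finset α} (hl : l ∈ L) (hm : m ∈ L) (hne : l ≠ m)
    {x : α} (hx : x ∈ l) (hx' : x ∈ m) : l ∩ m = {x} := by
  ext y
  simp only [mem_inter, mem_singleton]
  constructor
  · rintro ⟨h1, h2⟩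
    by_contra hyx
    exact hne (h.line_unique hyx hl hm h1 hx h2 hx')
  · rintro rfl
    exact ⟨hx, hx'⟩

/-- Independence. -/
def Indep (L : Set (Finset α)) (S : Finset α) : Prop := ∀ l ∈ L, (l ∩ S).card ≤ 2

theorem Indep.subset {S T : Finset α} (hT : Indep L T) (hST : S ⊆ T) : Indep L S := fun l hl =>
  (card_le_card (inter_subset_inter_left hST)).trans (hT l hl)

theorem Indep.not_mem_line (h : Plane L) {S : Finset α} (hS : Indep L S) {a b c : α} (ha : a ∈ S)
    (hb : b ∈ S) (hc : c ∈ S) (hab : a ≠ b) (hac : a ≠ c) (hbc : b ≠ c) : c ∉ lineOf L a b := by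
  intro hmem
  have h1 : ({a, b, c} : Finset α) ⊆ lineOf L a b ∩ S := by
    intro t ht
    simp only [mem_insert, mem_singleton] at ht
    rcases ht with rfl | rfl | rfl
    · exact mem_inter.mpr ⟨h.left_mem hab, ha⟩
    · exact mem_inter.mpr ⟨h.right_mem hab, hb⟩
    · exact mem_inter.mpr ⟨hmem, hc⟩
  have h2 := card_le_card h1
  rw [card_eq_three.mpr ⟨a, b, c, hab, hac, hbc, rfl⟩] at h2
  have := hS _ (h.lineOf_mem hab)
  omega

theorem indep_of_no_three (h : Plane L) {S : Finset α}
    (hS : ∀ a ∈ S, ∀ b ∈ S, ∀ c ∈ S, a ≠ b → a ≠ c → b ≠ c → c ∉ lineOf L a b) : Indep L S := by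
  intro l hl
  by_contra hc
  push Not at hc
  obtain ⟨a, ha, b, hb, c, hc', hab, hac, hbc⟩ := two_lt_card.mp hc
  have ha' := mem_inter.mp ha
  have hb' := mem_inter.mp hb
  have hc'' := mem_inter.mp hc'
  apply hS a ha'.2 b hb'.2 c hc''.2 hab hac hbc
  rw [h.lineOf_eq hab hl ha'.1 hb'.1]
  exact hc''.1

/-! ### Non-collinear triples -/

/-- A non-collinear triple. -/
structure NC (L : Set (Finset α)) (x y z : α) : Prop where
  ne1 : x ≠ y
  ne2 : x ≠ z
  ne3 : y ≠ z
  nm : z ∉ lineOf L x y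

theorem NC.swap (h : Plane L) {x y z : α} (hn : NC L x y z) : NC L y x z :=
  ⟨hn.ne1.symm, hn.ne3, hn.ne2, by rw [h.lineOf_comm hn.ne1.symm]; exact hn.nm⟩

theorem NC.rot (h : Plane L) {x y z : α} (hn : NC L x y z) : NC L x z y := by
  refine ⟨hn.ne2, hn.ne1, hn.ne3.symm, ?_⟩
  intro hy
  apply hn.nm
  rw [h.lineOf_eq hn.ne1 (h.lineOf_mem hn.ne2) (h.left_mem hn.ne2) hy]
  exact h.right_mem hn.ne2

/-- A 4-arc. -/
structure Arc4 (L : Set (Finset α)) (a b c d : α) : Prop where
  abc : NC L a b c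
  abd : NC L a b d
  acd : NC L a c d
  bcd : NC L b c d

/-- Lines as named points: two different lines with two common points agree. -/
theorem Plane.eq_of_two (h : Plane L) {l m : Finset α} (hl : l ∈ L) (hm : m ∈ L) (hne : l ≠ m)
    {x y : α} (hx : x ∈ l) (hx' : x ∈ m) (hy : y ∈ l) (hy' : y ∈ m) : y = x := by
  by_contra hyx
  exact hne (h.line_unique hyx hl hm hy hx hy' hx')

theorem ne_of_mem_notMem {l m : Finset α} {x : α} (h1 : x ∈ l) (h2 : x ∉ m) : l ≠ m :=
  fun h3 => h2 (h3 ▸ h1)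

theorem card_union_eq {U t : Finset α} {n k : ℕ} (hU : U.card = n) (ht : t.card = 5)
    (hi : (t ∩ U).card = k) (_hk : k ≤ 5) : (U ∪ t).card = n + 5 - k := by
  have := card_union_add_card_inter U t
  rw [inter_comm] at this
  rw [hU, ht, hi] at this
  omega

/-- Two lines through a common point cover nine points. -/
theorem Plane.card_two (h : Plane L) {l m : Finset α} (hl : l ∈ L) (hm : m ∈ L) (hne : l ≠ m)
    {x : α} (hx : x ∈ l) (hx' : x ∈ m) : (l ∪ m).card = 9 := by
  have h1 := h.inter_eq hm hl hne.symm hx' hx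
  have := card_union_eq (h.card_line hl) (h.card_line hm) (k := 1) (by rw [h1]; simp) (by norm_num)
  omega

/-- A triangle: the three lines cover twelve points. -/
theorem Plane.card_triangle (h : Plane L) {a b c : α} (hn : NC L a b c) :
    (lineOf L a b ∪ lineOf L a c ∪ lineOf L b c).card = 12 := by
  have hab := hn.ne1
  have hac := hn.ne2
  have hbc := hn.ne3
  have hAB := h.lineOf_mem hab
  have hAC := h.lineOf_mem hac
  have hBC := h.lineOf_mem hbc
  have hne1 : lineOf L a b ≠ lineOf L a c := (ne_of_mem_notMem (h.right_mem hac) hn.nm).symm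
  have hb' : b ∉ lineOf L a c := (NC.rot h hn).nm
  have ha' : a ∉ lineOf L b c := (NC.rot h (NC.swap h hn)).nm
  have hne2 : lineOf L b c ≠ lineOf L a b := (ne_of_mem_notMem (h.left_mem hab) ha').symm
  have hne3 : lineOf L b c ≠ lineOf L a c := (ne_of_mem_notMem (h.left_mem hac) ha').symm
  have h9 := h.card_two hAB hAC hne1 (h.left_mem hab) (h.left_mem hac)
  have hi : lineOf L b c ∩ (lineOf L a b ∪ lineOf L a c) = {b, c} := by
    ext y
    simp only [mem_inter, mem_union, mem_insert, mem_singleton]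
    constructor
    · rintro ⟨hy, hy1 | hy1⟩
      · left
        exact h.eq_of_two hBC hAB hne2 (h.left_mem hbc) (h.right_mem hab) hy hy1
      · right
        exact h.eq_of_two hBC hAC hne3 (h.right_mem hbc) (h.right_mem hac) hy hy1
    · rintro (rfl | rfl)
      · exact ⟨h.left_mem hbc, Or.inl (h.right_mem hab)⟩
      · exact ⟨h.right_mem hbc, Or.inr (h.right_mem hac)⟩
  have := card_union_eq h9 (h.card_line hBC) (k := 2) (by rw [hi, card_pair hbc]) (by norm_num)
  omega

/-- A 4-arc: the six lines cover nineteen points. -/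
theorem Plane.card_six (h : Plane L) {a b c d : α} (hA : Arc4 L a b c d) :
    (lineOf L a b ∪ lineOf L a c ∪ lineOf L a d ∪ lineOf L b c ∪ lineOf L b d ∪ lineOf L c d).card
      = 19 := by
  obtain ⟨habc, habd, hacd, hbcd⟩ := hA
  have hab := habc.ne1
  have hac := habc.ne2
  have had := habd.ne2
  have hbc := habc.ne3
  have hbd := habd.ne3
  have hcd := hacd.ne3
  have hAB := h.lineOf_mem hab
  have hAC := h.lineOf_mem hac
  have hAD := h.lineOf_mem had
  have hBC := h.lineOf_mem hbc
  have hBD := h.lineOf_mem hbd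
  have hCD := h.lineOf_mem hcd
  -- membership facts
  have c_ab : c ∉ lineOf L a b := habc.nm
  have d_ab : d ∉ lineOf L a b := habd.nm
  have b_ac : b ∉ lineOf L a c := (NC.rot h habc).nm
  have d_ac : d ∉ lineOf L a c := hacd.nm
  have b_ad : b ∉ lineOf L a d := (NC.rot h habd).nm
  have c_ad : c ∉ lineOf L a d := (NC.rot h hacd).nm
  have a_bc : a ∉ lineOf L b c := (NC.rot h (NC.swap h habc)).nm
  have d_bc : d ∉ lineOf L b c := hbcd.nm
  have a_bd : a ∉ lineOf L b d := (NC.rot h (NC.swap h habd)).nm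
  have c_bd : c ∉ lineOf L b d := (NC.rot h hbcd).nm
  have a_cd : a ∉ lineOf L c d := (NC.rot h (NC.swap h hacd)).nm
  have b_cd : b ∉ lineOf L c d := (NC.rot h (NC.swap h hbcd)).nm
  have aAB := h.left_mem hab
  have bAB := h.right_mem hab
  have aAC := h.left_mem hac
  have cAC := h.right_mem hac
  have aAD := h.left_mem had
  have dAD := h.right_mem had
  have bBC := h.left_mem hbc
  have cBC := h.right_mem hbc
  have bBD := h.left_mem hbd
  have dBD := h.right_mem hbd
  have cCD := h.left_mem hcd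
  have dCD := h.right_mem hcd
  -- step 1
  have h9 := h.card_two hAB hAC (ne_of_mem_notMem bAB b_ac) aAB aAC
  -- step 2
  have hi2 : lineOf L a d ∩ (lineOf L a b ∪ lineOf L a c) = {a} := by
    ext y
    simp only [mem_inter, mem_union, mem_singleton]
    constructor
    · rintro ⟨hy, hy1 | hy1⟩
      · exact h.eq_of_two hAD hAB (ne_of_mem_notMem dAD d_ab) aAD aAB hy hy1
      · exact h.eq_of_two hAD hAC (ne_of_mem_notMem dAD d_ac) aAD aAC hy hy1
    · rintro rfl
      exact ⟨aAD, Or.inl aAB⟩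
  have h13 := card_union_eq h9 (h.card_line hAD) (k := 1) (by rw [hi2]; simp) (by norm_num)
  -- step 3 : r
  obtain ⟨r, hr1, hr2⟩ := h.exists_meet hAD hBC
  have hi3 : lineOf L b c ∩ (lineOf L a b ∪ lineOf L a c ∪ lineOf L a d) = {b, c, r} := by
    ext y
    simp only [mem_inter, mem_union, mem_insert, mem_singleton]
    constructor
    · rintro ⟨hy, (hy1 | hy1) | hy1⟩
      · left
        exact h.eq_of_two hBC hAB (ne_of_mem_notMem cBC c_ab) bBC bAB hy hy1
      · right; left
        exact h.eq_of_two hBC hAC (ne_of_mem_notMem bBC b_ac) cBC cAC hy hy1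
      · right; right
        exact h.eq_of_two hBC hAD (ne_of_mem_notMem bBC b_ad) hr2 hr1 hy hy1
    · rintro (rfl | rfl | rfl)
      · exact ⟨bBC, Or.inl (Or.inl bAB)⟩
      · exact ⟨cBC, Or.inl (Or.inr cAC)⟩
      · exact ⟨hr2, Or.inr hr1⟩
  have hr_b : b ≠ r := fun hh => b_ad (hh ▸ hr1)
  have hr_c : c ≠ r := fun hh => c_ad (hh ▸ hr1)
  have h15 := card_union_eq h13 (h.card_line hBC) (k := 3)
    (by rw [hi3]; exact card_eq_three.mpr ⟨b, c, r, hbc, hr_b, hr_c, rfl⟩) (by norm_num)
  -- step 4 : q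
  obtain ⟨q, hq1, hq2⟩ := h.exists_meet hAC hBD
  have hi4 : lineOf L b d ∩ (lineOf L a b ∪ lineOf L a c ∪ lineOf L a d ∪ lineOf L b c)
      = {b, d, q} := by
    ext y
    simp only [mem_inter, mem_union, mem_insert, mem_singleton]
    constructor
    · rintro ⟨hy, ((hy1 | hy1) | hy1) | hy1⟩
      · left
        exact h.eq_of_two hBD hAB (ne_of_mem_notMem dBD d_ab) bBD bAB hy hy1
      · right; right
        exact h.eq_of_two hBD hAC (ne_of_mem_notMem bBD b_ac) hq2 hq1 hy hy1
      · right; left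
        exact h.eq_of_two hBD hAD (ne_of_mem_notMem bBD b_ad) dBD dAD hy hy1
      · left
        exact h.eq_of_two hBD hBC (ne_of_mem_notMem dBD d_bc) bBD bBC hy hy1
    · rintro (rfl | rfl | rfl)
      · exact ⟨bBD, Or.inl (Or.inl (Or.inl bAB))⟩
      · exact ⟨dBD, Or.inl (Or.inr dAD)⟩
      · exact ⟨hq2, Or.inl (Or.inl (Or.inr hq1))⟩
  have hq_b : b ≠ q := fun hh => b_ac (hh ▸ hq1)
  have hq_d : d ≠ q := fun hh => d_ac (hh ▸ hq1)
  have h17 := card_union_eq h15 (h.card_line hBD) (k := 3)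
    (by rw [hi4]; exact card_eq_three.mpr ⟨b, d, q, hbd, hq_b, hq_d, rfl⟩) (by norm_num)
  -- step 5 : p
  obtain ⟨p, hp1, hp2⟩ := h.exists_meet hAB hCD
  have hi5 : lineOf L c d ∩ (lineOf L a b ∪ lineOf L a c ∪ lineOf L a d ∪ lineOf L b c ∪ lineOf L b d)
      = {c, d, p} := by
    ext y
    simp only [mem_inter, mem_union, mem_insert, mem_singleton]
    constructor
    · rintro ⟨hy, (((hy1 | hy1) | hy1) | hy1) | hy1⟩
      · right; right
        exact h.eq_of_two hCD hAB (ne_of_mem_notMem cCD c_ab) hp2 hp1 hy hy1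
      · left
        exact h.eq_of_two hCD hAC (ne_of_mem_notMem dCD d_ac) cCD cAC hy hy1
      · right; left
        exact h.eq_of_two hCD hAD (ne_of_mem_notMem cCD c_ad) dCD dAD hy hy1
      · left
        exact h.eq_of_two hCD hBC (ne_of_mem_notMem dCD d_bc) cCD cBC hy hy1
      · right; left
        exact h.eq_of_two hCD hBD (ne_of_mem_notMem cCD c_bd) dCD dBD hy hy1
    · rintro (rfl | rfl | rfl)
      · exact ⟨cCD, Or.inl (Or.inl (Or.inl (Or.inr cAC)))⟩
      · exact ⟨dCD, Or.inr dBD⟩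
      · exact ⟨hp2, Or.inl (Or.inl (Or.inl (Or.inl hp1)))⟩
  have hp_c : c ≠ p := fun hh => c_ab (hh ▸ hp1)
  have hp_d : d ≠ p := fun hh => d_ab (hh ▸ hp1)
  have h19 := card_union_eq h17 (h.card_line hCD) (k := 3)
    (by rw [hi5]; exact card_eq_three.mpr ⟨c, d, p, hcd, hp_c, hp_d, rfl⟩) (by norm_num)
  omega

/-- The points off the six lines of a 4-arc. -/
noncomputable def offSix (L : Set (Finset α)) (a b c d : α) : Finset α :=
  univ \ (lineOf L a b ∪ lineOf L a c ∪ lineOf L a d ∪ lineOf L b c ∪ lineOf L b d ∪ lineOf L c d)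

theorem mem_offSix {a b c d x : α} : x ∈ offSix L a b c d ↔
    x ∉ lineOf L a b ∧ x ∉ lineOf L a c ∧ x ∉ lineOf L a d ∧ x ∉ lineOf L b c ∧ x ∉ lineOf L b d ∧
      x ∉ lineOf L c d := by
  simp only [offSix, mem_sdiff, mem_univ, true_and, mem_union, not_or, and_assoc]

theorem Plane.card_offSix (h : Plane L) {a b c d : α} (hA : Arc4 L a b c d) :
    (offSix L a b c d).card = 2 := by
  rw [offSix, card_sdiff_of_subset (subset_univ _), h.card_six hA, card_univ, h.card]

/-- No point of a 4-arc lies on a line through two points off the six lines. -/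
theorem Plane.not_collinear_off (h : Plane L) {a b c d u v : α} (hA : Arc4 L a b c d)
    (hu : u ∈ offSix L a b c d) (hv : v ∈ offSix L a b c d) (huv : u ≠ v) :
    a ∉ lineOf L u v := by
  intro ha
  obtain ⟨habc, habd, hacd, hbcd⟩ := hA
  have hab := habc.ne1
  have hac := habc.ne2
  have had := habd.ne2
  have hbc := habc.ne3
  have hbd := habd.ne3
  have hcd := hacd.ne3
  obtain ⟨u1, u2, u3, u4, u5, u6⟩ := mem_offSix.mp hu
  obtain ⟨v1, v2, v3, v4, v5, v6⟩ := mem_offSix.mp hv
  have hUV := h.lineOf_mem huv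
  have a_bc : a ∉ lineOf L b c := (NC.rot h (NC.swap h habc)).nm
  have a_bd : a ∉ lineOf L b d := (NC.rot h (NC.swap h habd)).nm
  have a_cd : a ∉ lineOf L c d := (NC.rot h (NC.swap h hacd)).nm
  have hBC := h.lineOf_mem hbc
  have hBD := h.lineOf_mem hbd
  have hCD := h.lineOf_mem hcd
  obtain ⟨t1, t1a, t1b⟩ := h.exists_meet hUV hBC
  obtain ⟨t2, t2a, t2b⟩ := h.exists_meet hUV hBD
  obtain ⟨t3, t3a, t3b⟩ := h.exists_meet hUV hCD
  have hua : u ≠ a := fun hh => u1 (by rw [hh]; exact h.left_mem hab)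
  have hva : v ≠ a := fun hh => v1 (by rw [hh]; exact h.left_mem hab)
  have b_notin : b ∉ lineOf L u v := by
    intro hb
    apply u1
    rw [h.lineOf_eq hab hUV ha hb]
    exact h.left_mem huv
  have c_notin : c ∉ lineOf L u v := by
    intro hc
    apply u2
    rw [h.lineOf_eq hac hUV ha hc]
    exact h.left_mem huv
  have d_notin : d ∉ lineOf L u v := by
    intro hd
    apply u3
    rw [h.lineOf_eq had hUV ha hd]
    exact h.left_mem huv
  have h12 : t1 ≠ t2 := by
    intro he
    subst he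
    have hne : lineOf L b c ≠ lineOf L b d :=
      ne_of_mem_notMem (h.right_mem hbc) (NC.rot h hbcd).nm
    have := h.eq_of_two hBC hBD hne (h.left_mem hbc) (h.left_mem hbd) t1b t2b
    exact b_notin (this ▸ t1a)
  have h13 : t1 ≠ t3 := by
    intro he
    subst he
    have hne : lineOf L b c ≠ lineOf L c d :=
      ne_of_mem_notMem (h.left_mem hbc) (NC.rot h (NC.swap h hbcd)).nm
    have := h.eq_of_two hBC hCD hne (h.right_mem hbc) (h.left_mem hcd) t1b t3b
    exact c_notin (this ▸ t1a)
  have h23 : t2 ≠ t3 := by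
    intro he
    subst he
    have hne : lineOf L b d ≠ lineOf L c d :=
      ne_of_mem_notMem (h.left_mem hbd) (NC.rot h (NC.swap h hbcd)).nm
    have := h.eq_of_two hBD hCD hne (h.right_mem hbd) (h.right_mem hcd) t2b t3b
    exact d_notin (this ▸ t2a)
  have ht1a : t1 ≠ a := fun hh => a_bc (hh ▸ t1b)
  have ht2a : t2 ≠ a := fun hh => a_bd (hh ▸ t2b)
  have ht3a : t3 ≠ a := fun hh => a_cd (hh ▸ t3b)
  have ht1u : t1 ≠ u := fun hh => u4 (hh ▸ t1b)
  have ht2u : t2 ≠ u := fun hh => u5 (hh ▸ t2b)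
  have ht3u : t3 ≠ u := fun hh => u6 (hh ▸ t3b)
  have ht1v : t1 ≠ v := fun hh => v4 (hh ▸ t1b)
  have ht2v : t2 ≠ v := fun hh => v5 (hh ▸ t2b)
  have ht3v : t3 ≠ v := fun hh => v6 (hh ▸ t3b)
  have hsub : ({a, u, v, t1, t2, t3} : Finset α) ⊆ lineOf L u v := by
    intro x hx
    simp only [mem_insert, mem_singleton] at hx
    rcases hx with rfl | rfl | rfl | rfl | rfl | rfl
    · exact ha
    · exact h.left_mem huv
    · exact h.right_mem huv
    · exact t1a
    · exact t2a
    · exact t3a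
  have hc6 : ({a, u, v, t1, t2, t3} : Finset α).card = 6 := by
    rw [card_insert_of_notMem, card_insert_of_notMem, card_insert_of_notMem, card_insert_of_notMem,
      card_pair h23]
    · simp [h12, h13]
    · simp [ht1v.symm, ht2v.symm, ht3v.symm]
    · simp [huv, ht1u.symm, ht2u.symm, ht3u.symm]
    · simp [hua.symm, hva.symm, ht1a.symm, ht2a.symm, ht3a.symm]
  have := card_le_card hsub
  rw [hc6, h.card_line hUV] at this
  omega

end Cfsg.Agent.Lib.Plane4
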