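import Mathlib

/-!
# Synthemes (fixed-point-free involutions) of six points and totals

`clique_unique`: two sets of five pairwise disjoint synthemes sharing two members coincide.
-/

set_option autoImplicit false

namespace Cfsg.Agent.Lib.Plane4

/-- The fifteen synthemes of six points, as involutions. -/
def synTbl : Fin 15 → Fin 6 → Fin 6 := ![
  ![1,0,3,2,5,4],
  ![1,0,4,5,2,3],
  ![1,0,5,4,3,2],
  ![2,3,0,1,5,4],
  ![2,4,0,5,1,3],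
  ![2,5,0,4,3,1],
  ![3,2,1,0,5,4],
  ![3,4,5,0,1,2],
  ![3,5,4,0,2,1],
  ![4,2,1,5,0,3],
  ![4,3,5,1,0,2],
  ![4,5,3,2,0,1],
  ![5,2,1,4,3,0],
  ![5,3,4,1,2,0],
  ![5,4,3,2,1,0]]

def SynInv (a b c d e f : Fin 6) : Prop :=
  ∀ i : Fin 6, (![a,b,c,d,e,f] : Fin 6 → Fin 6) ((![a,b,c,d,e,f] : Fin 6 → Fin 6) i) = i
instance (a b c d e f : Fin 6) : Decidable (SynInv a b c d e f) := by unfold SynInv; infer_instance
def SynEx (a b c d e f : Fin 6) : Prop :=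
  ∃ k : Fin 15, synTbl k 0 = a ∧ synTbl k 1 = b ∧ synTbl k 2 = c ∧ synTbl k 3 = d ∧ synTbl k 4 = e ∧
    synTbl k 5 = f
instance (a b c d e f : Fin 6) : Decidable (SynEx a b c d e f) := by unfold SynEx; infer_instance

def SynP5 (a b c d e : Fin 6) : Prop := ∀ f : Fin 6, f ≠ 5 → SynInv a b c d e f → SynEx a b c d e f
instance (a b c d e : Fin 6) : Decidable (SynP5 a b c d e) := by unfold SynP5; infer_instance
def SynP4 (a b c d : Fin 6) : Prop := ∀ e : Fin 6, e ≠ 4 → SynP5 a b c d e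
instance (a b c d : Fin 6) : Decidable (SynP4 a b c d) := by unfold SynP4; infer_instance
def SynP3 (a b c : Fin 6) : Prop := ∀ d : Fin 6, d ≠ 3 → SynP4 a b c d
instance (a b c : Fin 6) : Decidable (SynP3 a b c) := by unfold SynP3; infer_instance

set_option maxRecDepth 100000 in
theorem syn_cover : ∀ a : Fin 6, a ≠ 0 → ∀ b : Fin 6, b ≠ 1 → ∀ c : Fin 6, c ≠ 2 → SynP3 a b c := by
  decide +kernel

/-- A syntheme: a fixed-point-free involution. -/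
def IsSyn (s : Fin 6 → Fin 6) : Prop := ∀ i, s (s i) = i ∧ s i ≠ i

/-- Two synthemes share no duad. -/
def SynDj (s t : Fin 6 → Fin 6) : Prop := ∀ i, s i ≠ t i

theorem exists_synTbl {s : Fin 6 → Fin 6} (hs : IsSyn s) : ∃ k, s = synTbl k := by
  have hv : s = ![s 0, s 1, s 2, s 3, s 4, s 5] := by
    funext i
    fin_cases i <;> rfl
  have hinv : SynInv (s 0) (s 1) (s 2) (s 3) (s 4) (s 5) := by
    intro i
    rw [← hv]
    exact (hs i).1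
  obtain ⟨k, h0, h1, h2, h3, h4, h5⟩ := syn_cover (s 0) (hs 0).2 (s 1) (hs 1).2 (s 2) (hs 2).2 (s 3) (hs 3).2
    (s 4) (hs 4).2 (s 5) (hs 5).2 hinv
  refine ⟨k, ?_⟩
  funext i
  fin_cases i
  · exact h0.symm
  · exact h1.symm
  · exact h2.symm
  · exact h3.symm
  · exact h4.symm
  · exact h5.symm

def SynD (k l : Fin 15) : Prop := ∀ i, synTbl k i ≠ synTbl l i
instance : DecidableRel SynD := fun k l => by unfold SynD; infer_instance

set_option maxRecDepth 100000 in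
theorem syn_clique : ∀ k1 k2, SynD k1 k2 → ∀ k3, SynD k1 k3 → SynD k2 k3 → ∀ k4, SynD k1 k4 → SynD k2 k4 → SynD k3 k4 →
    ∀ k5, SynD k1 k5 → SynD k2 k5 → SynD k3 k5 → SynD k4 k5 →
    ∀ t3, SynD k1 t3 → SynD k2 t3 → ∀ t4, SynD k1 t4 → SynD k2 t4 → SynD t3 t4 →
    ∀ t5, SynD k1 t5 → SynD k2 t5 → SynD t3 t5 → SynD t4 t5 → (k3 = t3 ∨ k3 = t4 ∨ k3 = t5) := by
  decide +kernel

theorem syn_clique' {a b s3 s4 s5 t3 t4 t5 : Fin 6 → Fin 6} (ha : IsSyn a) (hb : IsSyn b)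
    (h3 : IsSyn s3) (h4 : IsSyn s4) (h5 : IsSyn s5) (g3 : IsSyn t3) (g4 : IsSyn t4) (g5 : IsSyn t5)
    (d1 : SynDj a b) (d2 : SynDj a s3) (d3 : SynDj b s3) (d4 : SynDj a s4) (d5 : SynDj b s4)
    (d6 : SynDj s3 s4) (d7 : SynDj a s5) (d8 : SynDj b s5) (d9 : SynDj s3 s5) (d10 : SynDj s4 s5)
    (e2 : SynDj a t3) (e3 : SynDj b t3) (e4 : SynDj a t4) (e5 : SynDj b t4)
    (e6 : SynDj t3 t4) (e7 : SynDj a t5) (e8 : SynDj b t5) (e9 : SynDj t3 t5) (e10 : SynDj t4 t5) :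
    s3 = t3 ∨ s3 = t4 ∨ s3 = t5 := by
  obtain ⟨k1, rfl⟩ := exists_synTbl ha
  obtain ⟨k2, rfl⟩ := exists_synTbl hb
  obtain ⟨k3, rfl⟩ := exists_synTbl h3
  obtain ⟨k4, rfl⟩ := exists_synTbl h4
  obtain ⟨k5, rfl⟩ := exists_synTbl h5
  obtain ⟨l3, rfl⟩ := exists_synTbl g3
  obtain ⟨l4, rfl⟩ := exists_synTbl g4
  obtain ⟨l5, rfl⟩ := exists_synTbl g5
  rcases syn_clique k1 k2 d1 k3 d2 d3 k4 d4 d5 d6 k5 d7 d8 d9 d10 l3 e2 e3 l4 e4 e5 e6 l5 e7 e8 e9 e10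
    with h | h | h
  · exact Or.inl (by rw [h])
  · exact Or.inr (Or.inl (by rw [h]))
  · exact Or.inr (Or.inr (by rw [h]))

theorem SynDj.symm {s t : Fin 6 → Fin 6} (h : SynDj s t) : SynDj t s := fun i hi => h i hi.symm

open Classical in
/-- Two sets of five pairwise disjoint synthemes sharing two members coincide. -/
theorem clique_unique {T T' : Finset (Fin 6 → Fin 6)} (hT : T.card = 5) (hT' : T'.card = 5)
    (hs : ∀ s ∈ T, IsSyn s) (hs' : ∀ s ∈ T', IsSyn s) (hd : ∀ s ∈ T, ∀ t ∈ T, s ≠ t → SynDj s t)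
    (hd' : ∀ s ∈ T', ∀ t ∈ T', s ≠ t → SynDj s t) {a b : Fin 6 → Fin 6} (ha : a ∈ T) (ha' : a ∈ T')
    (hb : b ∈ T) (hb' : b ∈ T') (hab : a ≠ b) : T = T' := by
  have hc1 : ((T.erase a).erase b).card = 3 := by
    rw [Finset.card_erase_of_mem (Finset.mem_erase.mpr ⟨hab.symm, hb⟩), Finset.card_erase_of_mem ha, hT]
  have hc2 : ((T'.erase a).erase b).card = 3 := by
    rw [Finset.card_erase_of_mem (Finset.mem_erase.mpr ⟨hab.symm, hb'⟩), Finset.card_erase_of_mem ha', hT']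
  obtain ⟨s3, s4, s5, h34, h35, h45, hE⟩ := Finset.card_eq_three.mp hc1
  obtain ⟨t3, t4, t5, g34, g35, g45, hE'⟩ := Finset.card_eq_three.mp hc2
  have mem1 : ∀ x, x ∈ ({s3, s4, s5} : Finset _) → x ∈ T ∧ x ≠ a ∧ x ≠ b := by
    intro x hx
    rw [← hE] at hx
    obtain ⟨h1, h2⟩ := Finset.mem_erase.mp hx
    obtain ⟨h3, h4⟩ := Finset.mem_erase.mp h2
    exact ⟨h4, h3, h1⟩
  have mem2 : ∀ x, x ∈ ({t3, t4, t5} : Finset _) → x ∈ T' ∧ x ≠ a ∧ x ≠ b := by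
    intro x hx
    rw [← hE'] at hx
    obtain ⟨h1, h2⟩ := Finset.mem_erase.mp hx
    obtain ⟨h3, h4⟩ := Finset.mem_erase.mp h2
    exact ⟨h4, h3, h1⟩
  have ms3 := mem1 s3 (by simp)
  have ms4 := mem1 s4 (by simp)
  have ms5 := mem1 s5 (by simp)
  have mt3 := mem2 t3 (by simp)
  have mt4 := mem2 t4 (by simp)
  have mt5 := mem2 t5 (by simp)
  have key : ∀ {x y z : Fin 6 → Fin 6}, x ∈ T → y ∈ T → z ∈ T → x ≠ a → x ≠ b → y ≠ a → y ≠ b → z ≠ a → z ≠ b →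
      x ≠ y → x ≠ z → y ≠ z → x ∈ T' := by
    intro x y z hx hy hz xa xb ya yb za zb xy xz yz
    have := syn_clique' (a := a) (b := b) (s3 := x) (s4 := y) (s5 := z) (t3 := t3) (t4 := t4) (t5 := t5)
      (hs a ha) (hs b hb) (hs x hx) (hs y hy) (hs z hz) (hs' _ mt3.1) (hs' _ mt4.1) (hs' _ mt5.1)
      (hd a ha b hb hab) (hd a ha x hx xa.symm) (hd b hb x hx xb.symm) (hd a ha y hy ya.symm)
      (hd b hb y hy yb.symm) (hd x hx y hy xy) (hd a ha z hz za.symm) (hd b hb z hz zb.symm)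
      (hd x hx z hz xz) (hd y hy z hz yz) (hd' a ha' t3 mt3.1 mt3.2.1.symm)
      (hd' b hb' t3 mt3.1 mt3.2.2.symm) (hd' a ha' t4 mt4.1 mt4.2.1.symm)
      (hd' b hb' t4 mt4.1 mt4.2.2.symm) (hd' t3 mt3.1 t4 mt4.1 g34) (hd' a ha' t5 mt5.1 mt5.2.1.symm)
      (hd' b hb' t5 mt5.1 mt5.2.2.symm) (hd' t3 mt3.1 t5 mt5.1 g35) (hd' t4 mt4.1 t5 mt5.1 g45)
    rcases this with h | h | h
    · rw [h]; exact mt3.1
    · rw [h]; exact mt4.1
    · rw [h]; exact mt5.1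
  apply Finset.eq_of_subset_of_card_le _ (by rw [hT, hT'])
  intro x hx
  by_cases hxa : x = a
  · rw [hxa]; exact ha'
  by_cases hxb : x = b
  · rw [hxb]; exact hb'
  have : x ∈ ({s3, s4, s5} : Finset _) := by
    rw [← hE]
    exact Finset.mem_erase.mpr ⟨hxb, Finset.mem_erase.mpr ⟨hxa, hx⟩⟩
  simp only [Finset.mem_insert, Finset.mem_singleton] at this
  rcases this with rfl | rfl | rfl
  · exact key ms3.1 ms4.1 ms5.1 ms3.2.1 ms3.2.2 ms4.2.1 ms4.2.2 ms5.2.1 ms5.2.2 h34 h35 h45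
  · exact key ms4.1 ms3.1 ms5.1 ms4.2.1 ms4.2.2 ms3.2.1 ms3.2.2 ms5.2.1 ms5.2.2 h34.symm h45 h35
  · exact key ms5.1 ms3.1 ms4.1 ms5.2.1 ms5.2.2 ms3.2.1 ms3.2.2 ms4.2.1 ms4.2.2 h35.symm h45.symm h34

end Cfsg.Agent.Lib.Plane4
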