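import Cfsg.Agent.Lib.Plane4.Arc
import Cfsg.Agent.Lib.Plane4.Syn

/-!
# Hyperovals determine the plane: bijections of hyperovals extend to isomorphisms of planes
-/

set_option autoImplicit false
set_option linter.unusedSectionVars false

namespace Cfsg.Agent.Lib.Plane4

open Finset

variable {α : Type*} [Fintype α] [DecidableEq α] {L : Set (Finset α)} {H : Finset α}

/-- A hyperoval. -/
structure Hyper (L : Set (Finset α)) (H : Finset α) : Prop where
  card : H.card = 6
  indep : Indep L H

theorem Hyper.nonempty (hH : Hyper L H) : Nonempty H := by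
  have hne : H.Nonempty := by
    rw [← card_pos, hH.card]
    norm_num
  obtain ⟨p, hp⟩ := hne
  exact ⟨⟨p, hp⟩⟩

theorem Hyper.exists_other (h : Plane L) (hH : Hyper L H) {p : α} (hp : p ∈ H) {l : Finset α}
    (hl : l ∈ L) (hpl : p ∈ l) : ∃ q ∈ H, q ≠ p ∧ q ∈ l := by
  classical
  let F : α → Finset α := fun q => lineOf L p q
  have hne : ∀ q ∈ H.erase p, p ≠ q := fun q hq => (ne_of_mem_erase hq).symm
  have hinj : Set.InjOn F (H.erase p : Set α) := by
    intro q hq r hr hqr
    by_contra hne'
    have hq' := mem_coe.mp hq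
    have hr' := mem_coe.mp hr
    have hm : r ∈ lineOf L p q := by
      have : lineOf L p q = lineOf L p r := hqr
      rw [this]
      exact h.right_mem (hne r hr')
    exact Indep.not_mem_line h hH.indep hp (mem_of_mem_erase hq') (mem_of_mem_erase hr') (hne q hq')
      (hne r hr') hne' hm
  have him : (H.erase p).image F ⊆ thru L p := by
    intro t ht
    obtain ⟨q, hq, rfl⟩ := mem_image.mp ht
    exact mem_thru.mpr ⟨h.lineOf_mem (hne q hq), h.left_mem (hne q hq)⟩
  have hcard : ((H.erase p).image F).card = 5 := by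
    rw [card_image_of_injOn hinj, card_erase_of_mem hp, hH.card]
  have heq : (H.erase p).image F = thru L p :=
    Finset.eq_of_subset_of_card_le him (by rw [hcard, h.card_thru])
  have hlt : l ∈ thru L p := mem_thru.mpr ⟨hl, hpl⟩
  rw [← heq] at hlt
  obtain ⟨q, hq, hFq⟩ := mem_image.mp hlt
  refine ⟨q, mem_of_mem_erase hq, ne_of_mem_erase hq, ?_⟩
  rw [← hFq]
  exact h.right_mem (hne q hq)

open Classical in
/-- The partner of `p` in `H` on the line joining `x` and `p`. -/
noncomputable def pi (L : Set (Finset α)) (H : Finset α) (x : α) (p : H) : H :=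
  if hh : ∃ q : H, q ≠ p ∧ (q : α) ∈ lineOf L x p then hh.choose else p

theorem ne_of_notMem {x : α} (hx : x ∉ H) (p : H) : x ≠ p := fun he => hx (he ▸ p.2)

theorem pi_spec (h : Plane L) (hH : Hyper L H) {x : α} (hx : x ∉ H) (p : H) :
    pi L H x p ≠ p ∧ ((pi L H x p : H) : α) ∈ lineOf L x p := by
  have hxp := ne_of_notMem hx p
  obtain ⟨q, hq, hqp, hql⟩ := hH.exists_other h p.2 (h.lineOf_mem hxp) (h.right_mem hxp)
  have hh : ∃ q : H, q ≠ p ∧ (q : α) ∈ lineOf L x p :=
    ⟨⟨q, hq⟩, fun he => hqp (congrArg Subtype.val he), hql⟩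
  rw [pi, dif_pos hh]
  exact hh.choose_spec

theorem pi_ne (h : Plane L) (hH : Hyper L H) {x : α} (hx : x ∉ H) (p : H) : pi L H x p ≠ p :=
  (pi_spec h hH hx p).1

theorem pi_eq_of (h : Plane L) (hH : Hyper L H) {x : α} (hx : x ∉ H) {p q : H} (hqp : q ≠ p)
    (hq : (q : α) ∈ lineOf L x p) : pi L H x p = q := by
  by_contra hne
  have hxp := ne_of_notMem hx p
  obtain ⟨h1, h2⟩ := pi_spec h hH hx p
  have ha : (p : α) ≠ q := fun he => hqp (Subtype.ext he.symm)
  have hb : (p : α) ≠ (pi L H x p : H) := fun he => h1 (Subtype.ext he.symm)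
  have hc : (q : α) ≠ (pi L H x p : H) := fun he => hne (Subtype.ext he.symm)
  apply Indep.not_mem_line h hH.indep p.2 q.2 (pi L H x p).2 ha hb hc
  rw [h.lineOf_eq ha (h.lineOf_mem hxp) (h.right_mem hxp) hq]
  exact h2

theorem mem_line_pi (h : Plane L) (hH : Hyper L H) {x : α} (hx : x ∉ H) (p : H) :
    x ∈ lineOf L (p : α) (pi L H x p : H) := by
  have hxp := ne_of_notMem hx p
  obtain ⟨h1, h2⟩ := pi_spec h hH hx p
  have hb : (p : α) ≠ (pi L H x p : H) := fun he => h1 (Subtype.ext he.symm)
  rw [h.lineOf_eq hb (h.lineOf_mem hxp) (h.right_mem hxp) h2]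
  exact h.left_mem hxp

theorem pi_eq_of_mem (h : Plane L) (hH : Hyper L H) {x : α} (hx : x ∉ H) {p q : H} (hqp : q ≠ p)
    (hm : x ∈ lineOf L (p : α) (q : α)) : pi L H x p = q := by
  have hb : (p : α) ≠ q := fun he => hqp (Subtype.ext he.symm)
  have hxp := ne_of_notMem hx p
  apply pi_eq_of h hH hx hqp
  rw [h.lineOf_eq hxp (h.lineOf_mem hb) hm (h.left_mem hb)]
  exact h.right_mem hb

theorem pi_pi (h : Plane L) (hH : Hyper L H) {x : α} (hx : x ∉ H) (p : H) :
    pi L H x (pi L H x p) = p := by
  obtain ⟨h1, h2⟩ := pi_spec h hH hx p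
  apply pi_eq_of_mem h hH hx h1.symm
  have hb : (p : α) ≠ (pi L H x p : H) := fun he => h1 (Subtype.ext he.symm)
  rw [h.lineOf_comm hb.symm]
  exact mem_line_pi h hH hx p

theorem exists_third (hH : Hyper L H) (a b : H) : ∃ c : H, c ≠ a ∧ c ≠ b := by
  classical
  have hcard : Fintype.card H = 6 := by rw [Fintype.card_coe, hH.card]
  have h1 : ((univ : Finset H).erase a).erase b |>.Nonempty := by
    rw [← card_pos]
    have h2 := pred_card_le_card_erase (s := (univ : Finset H).erase a) (a := b)
    have h3 := pred_card_le_card_erase (s := (univ : Finset H)) (a := a)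
    rw [card_univ, hcard] at h3
    omega
  obtain ⟨c, hc⟩ := h1
  obtain ⟨h2, h3⟩ := mem_erase.mp hc
  exact ⟨c, (mem_erase.mp h3).1, h2⟩

theorem pi_inj (h : Plane L) (hH : Hyper L H) {x y : α} (hx : x ∉ H) (hy : y ∉ H)
    (he : ∀ p, pi L H x p = pi L H y p) : x = y := by
  classical
  obtain ⟨p1⟩ := hH.nonempty
  set p2 := pi L H x p1 with hp2
  obtain ⟨p3, h31, h32⟩ := exists_third hH p1 p2
  set p4 := pi L H x p3 with hp4
  have h12 : (p1 : α) ≠ p2 := fun he' => (pi_ne h hH hx p1) (Subtype.ext he'.symm)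
  have h34 : (p3 : α) ≠ p4 := fun he' => (pi_ne h hH hx p3) (Subtype.ext he'.symm)
  have hx1 : x ∈ lineOf L (p1 : α) p2 := mem_line_pi h hH hx p1
  have hy1 : y ∈ lineOf L (p1 : α) p2 := by
    have := mem_line_pi h hH hy p1
    rwa [← he p1] at this
  have hx2 : x ∈ lineOf L (p3 : α) p4 := mem_line_pi h hH hx p3
  have hy2 : y ∈ lineOf L (p3 : α) p4 := by
    have := mem_line_pi h hH hy p3
    rwa [← he p3] at this
  have hn : (p3 : α) ∉ lineOf L (p1 : α) p2 :=
    Indep.not_mem_line h hH.indep p1.2 p2.2 p3.2 h12 (fun he' => h31 (Subtype.ext he'.symm))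
      (fun he' => h32 (Subtype.ext he'.symm))
  have hlne : lineOf L (p1 : α) p2 ≠ lineOf L (p3 : α) p4 :=
    (ne_of_mem_notMem (h.left_mem h34) hn).symm
  exact (h.eq_of_two (h.lineOf_mem h12) (h.lineOf_mem h34) hlne hy1 hy2 hx1 hx2)

/-- Every fixed-point-free involution of `H` comes from a point off `H`. -/
theorem pi_surj (h : Plane L) (hH : Hyper L H) (ρ : H → H) (h1 : ∀ p, ρ (ρ p) = p)
    (h2 : ∀ p, ρ p ≠ p) : ∃ x, x ∉ H ∧ ∀ p, pi L H x p = ρ p := by
  classical
  have hcard : Fintype.card H = 6 := by rw [Fintype.card_coe, hH.card]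
  obtain ⟨p1⟩ := hH.nonempty
  set p2 := ρ p1 with hp2
  obtain ⟨p3, h31, h32⟩ := exists_third hH p1 p2
  set p4 := ρ p3 with hp4
  have h21 : p2 ≠ p1 := h2 p1
  have h43 : p4 ≠ p3 := h2 p3
  have h41 : p4 ≠ p1 := fun he => h32 (by
    have : ρ p4 = ρ p1 := by rw [he]
    rw [hp4, h1] at this
    exact this)
  have h42 : p4 ≠ p2 := fun he => h31 (by
    have : ρ p4 = ρ p2 := by rw [he]
    rw [hp4, hp2, h1, h1] at this
    exact this)
  have h12 : (p1 : α) ≠ p2 := fun he' => h21 (Subtype.ext he'.symm)
  have h34 : (p3 : α) ≠ p4 := fun he' => h43 (Subtype.ext he'.symm)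
  have hn : (p3 : α) ∉ lineOf L (p1 : α) p2 :=
    Indep.not_mem_line h hH.indep p1.2 p2.2 p3.2 h12 (fun he' => h31 (Subtype.ext he'.symm))
      (fun he' => h32 (Subtype.ext he'.symm))
  have hl1 := h.lineOf_mem h12
  have hl2 := h.lineOf_mem h34
  obtain ⟨x, hx1, hx2⟩ := h.exists_meet hl1 hl2
  have hxH : x ∉ H := by
    intro hx
    -- x ∈ H on both lines
    have a1 : (⟨x, hx⟩ : H) = p1 ∨ (⟨x, hx⟩ : H) = p2 := by
      by_contra hc
      push Not at hc
      exact Indep.not_mem_line h hH.indep p1.2 p2.2 hx h12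
        (fun he' => hc.1 (Subtype.ext he'.symm)) (fun he' => hc.2 (Subtype.ext he'.symm)) hx1
    have a2 : (⟨x, hx⟩ : H) = p3 ∨ (⟨x, hx⟩ : H) = p4 := by
      by_contra hc
      push Not at hc
      exact Indep.not_mem_line h hH.indep p3.2 p4.2 hx h34
        (fun he' => hc.1 (Subtype.ext he'.symm)) (fun he' => hc.2 (Subtype.ext he'.symm)) hx2
    rcases a1 with a1 | a1 <;> rcases a2 with a2 | a2
    · exact h31 (a2.symm.trans a1)
    · exact h41 (a2.symm.trans a1)
    · exact h32 (a2.symm.trans a1)
    · exact h42 (a2.symm.trans a1)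
  refine ⟨x, hxH, ?_⟩
  have e1 : pi L H x p1 = p2 := pi_eq_of_mem h hH hxH h21 hx1
  have e3 : pi L H x p3 = p4 := pi_eq_of_mem h hH hxH h43 hx2
  have e2 : pi L H x p2 = p1 := by rw [← e1, pi_pi h hH hxH]
  have e4 : pi L H x p4 = p3 := by rw [← e3, pi_pi h hH hxH]
  intro g
  by_cases g1 : g = p1
  · rw [g1, e1]
  by_cases g2 : g = p2
  · rw [g2, e2, hp2, h1]
  by_cases g3 : g = p3
  · rw [g3, e3]
  by_cases g4 : g = p4
  · rw [g4, e4, hp4, h1]
  -- the remaining case : both values are the unique point left over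
  let B : Finset H := {p1, p2, p3, p4, g}
  have hBc : B.card = 5 := by
    have hb1 : p1 ∉ ({p2, p3, p4, g} : Finset H) := by
      simp only [mem_insert, mem_singleton, not_or]
      exact ⟨h21.symm, h31.symm, h41.symm, Ne.symm g1⟩
    have hb2 : p2 ∉ ({p3, p4, g} : Finset H) := by
      simp only [mem_insert, mem_singleton, not_or]
      exact ⟨h32.symm, h42.symm, Ne.symm g2⟩
    have hb3 : p3 ∉ ({p4, g} : Finset H) := by
      simp only [mem_insert, mem_singleton, not_or]
      exact ⟨h43.symm, Ne.symm g3⟩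
    have hb4 : p4 ≠ g := Ne.symm g4
    show ({p1, p2, p3, p4, g} : Finset H).card = 5
    rw [card_insert_of_notMem hb1, card_insert_of_notMem hb2, card_insert_of_notMem hb3, card_pair hb4]
  have hRc : (univ \ B).card = 1 := by
    rw [card_sdiff_of_subset (subset_univ _), card_univ, hcard, hBc]
  obtain ⟨r, hr⟩ := card_eq_one.mp hRc
  have hval : ∀ σ : H → H, (∀ p, σ (σ p) = p) → (∀ p, σ p ≠ p) → σ p1 = p2 → σ p3 = p4 → σ g = r := by
    intro σ s1 s2 s3 s4
    have : σ g ∈ univ \ B := by
      simp only [mem_sdiff, mem_univ, true_and, B, mem_insert, mem_singleton, not_or]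
      refine ⟨?_, ?_, ?_, ?_, s2 g⟩
      · intro he
        apply g2
        have := congrArg σ he
        rw [s1, s3] at this
        exact this
      · intro he
        apply g1
        have := congrArg σ he
        rw [s1, ← s3, s1] at this
        · exact this
      · intro he
        apply g4
        have := congrArg σ he
        rw [s1, s4] at this
        exact this
      · intro he
        apply g3
        have := congrArg σ he
        rw [s1, ← s4, s1] at this
        exact this
    rw [hr] at this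
    exact mem_singleton.mp this
  rw [hval (pi L H x) (pi_pi h hH hxH) (pi_ne h hH hxH) e1 e3, hval ρ h1 h2 rfl rfl]

/-- Existence of a hyperoval. -/
theorem Plane.exists_hyper (h : Plane L) : ∃ H : Finset α, Hyper L H := by
  classical
  have hcard : Fintype.card α = 21 := h.card
  have hnt : Nontrivial α := Fintype.one_lt_card_iff_nontrivial.mp (by omega)
  obtain ⟨a, b, hab⟩ := exists_pair_ne α
  have exOff : ∀ U : Finset α, U.card < 21 → ∃ x, x ∉ U := by
    intro U hU
    by_contra hc
    push Not at hc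
    have : U = univ := eq_univ_iff_forall.mpr hc
    rw [this, card_univ, hcard] at hU
    omega
  obtain ⟨c, hc⟩ := exOff (lineOf L a b) (by rw [h.card_line (h.lineOf_mem hab)]; norm_num)
  have hac : a ≠ c := fun he => hc (he ▸ h.left_mem hab)
  have hbc : b ≠ c := fun he => hc (he ▸ h.right_mem hab)
  have habc : NC L a b c := ⟨hab, hac, hbc, hc⟩
  obtain ⟨d, hd⟩ := exOff (lineOf L a b ∪ lineOf L a c ∪ lineOf L b c)
    (by rw [h.card_triangle habc]; norm_num)
  simp only [mem_union, not_or] at hd
  obtain ⟨⟨d1, d2⟩, d3⟩ := hd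
  have had : a ≠ d := fun he => d1 (he ▸ h.left_mem hab)
  have hbd : b ≠ d := fun he => d1 (he ▸ h.right_mem hab)
  have hcd : c ≠ d := fun he => d2 (he ▸ h.right_mem hac)
  have hA : Arc4 L a b c d := ⟨habc, ⟨hab, had, hbd, d1⟩, ⟨hac, had, hcd, d2⟩, ⟨hbc, hbd, hcd, d3⟩⟩
  have hI := indep_of_arc4 h hA
  have hS : ({a, b, c, d} : Finset α).card = 4 := by
    rw [card_insert_of_notMem, card_insert_of_notMem, card_pair hcd]
    · simp [hbc, hbd]
    · simp [hab, hac, had]
  obtain ⟨H, ⟨⟨h1, h2⟩, -⟩, -⟩ := h.exists_unique_hyperoval hS hI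
  exact ⟨H, ⟨h1, h2⟩⟩

section Extend

variable {β : Type*} [Fintype β] [DecidableEq β] {L' : Set (Finset β)} {H' : Finset β}

/-- Bijections of hyperovals extend to isomorphisms of planes. -/
theorem Plane.extend (h : Plane L) (h' : Plane L') (hH : Hyper L H) (hH' : Hyper L' H')
    (f : H ≃ H') :
    ∃ e : α ≃ β, (∀ p : H, e p = f p) ∧ (fun b => b.image e) '' L = L' := by
  classical
  have hex : ∀ x : α, ∃ y : β, (∀ hx : x ∈ H, y = f ⟨x, hx⟩) ∧
      (x ∉ H → y ∉ H' ∧ ∀ q : H', pi L' H' y q = f (pi L H x (f.symm q))) := by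
    intro x
    by_cases hx : x ∈ H
    · exact ⟨f ⟨x, hx⟩, fun _ => rfl, fun hn => absurd hx hn⟩
    · obtain ⟨y, hy1, hy2⟩ := pi_surj h' hH' (fun q => f (pi L H x (f.symm q)))
        (by
          intro q
          simp only [Equiv.symm_apply_apply, pi_pi h hH hx, Equiv.apply_symm_apply])
        (by
          intro q he
          apply pi_ne h hH hx (f.symm q)
          rw [← Equiv.eq_symm_apply] at he
          exact he)
      exact ⟨y, fun hh => absurd hh hx, fun _ => ⟨hy1, hy2⟩⟩
  choose e he1 he2 using hex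
  have eH : ∀ p : H, e p = f p := fun p => he1 p p.2
  have eO : ∀ {x : α}, x ∉ H → e x ∉ H' := fun hx => (he2 _ hx).1
  have eP : ∀ {x : α}, x ∉ H → ∀ p : H, pi L' H' (e x) (f p) = f (pi L H x p) := by
    intro x hx p
    have := (he2 x hx).2 (f p)
    rwa [Equiv.symm_apply_apply] at this
  have hinj : Function.Injective e := by
    intro x y hxy
    by_cases hx : x ∈ H <;> by_cases hy : y ∈ H
    · have h1 := eH ⟨x, hx⟩
      have h2 := eH ⟨y, hy⟩
      simp only at h1 h2
      rw [hxy, h2] at h1
      have := f.injective (Subtype.ext h1)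
      exact (congrArg Subtype.val this).symm
    · exfalso
      apply eO hy
      rw [← hxy, eH ⟨x, hx⟩]
      exact (f ⟨x, hx⟩).2
    · exfalso
      apply eO hx
      rw [hxy, eH ⟨y, hy⟩]
      exact (f ⟨y, hy⟩).2
    · apply pi_inj h hH hx hy
      intro p
      apply f.injective
      rw [← eP hx, ← eP hy, hxy]
  have hcardE : Fintype.card α = Fintype.card β := by rw [h.card, h'.card]
  have hbij : Function.Bijective e :=
    (Fintype.bijective_iff_injective_and_card e).mpr ⟨hinj, hcardE⟩
  let E : α ≃ β := Equiv.ofBijective e hbij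
  have hEe : ∀ x, E x = e x := fun _ => rfl
  have hcardimg : ∀ l ∈ L, (l.image E).card = 5 := by
    intro l hl
    rw [card_image_of_injective _ E.injective, h.card_line hl]
  -- the lines go to lines
  have hline : ∀ l ∈ L, l.image E ∈ L' := by
    intro l hl
    by_cases hmeet : ∃ p ∈ l, p ∈ H
    · obtain ⟨p0, hpl, hpH⟩ := hmeet
      obtain ⟨q0, hqH, hqp, hql⟩ := hH.exists_other h hpH hl hpl
      let p : H := ⟨p0, hpH⟩
      let q : H := ⟨q0, hqH⟩
      have hqp' : q ≠ p := fun he => hqp (congrArg Subtype.val he)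
      have hfqp : f q ≠ f p := fun he => hqp' (f.injective he)
      have hfne : ((f p : H') : β) ≠ (f q : H') := fun he => hfqp (Subtype.ext he.symm)
      have hm := h'.lineOf_mem hfne
      have hlpq : lineOf L p0 q0 = l := h.lineOf_eq (Ne.symm hqp) hl hpl hql
      have hsub : l.image E ⊆ lineOf L' ((f p : H') : β) (f q : H') := by
        intro y hy
        obtain ⟨x, hx, rfl⟩ := mem_image.mp hy
        rw [hEe]
        by_cases hxH : x ∈ H
        · rw [eH ⟨x, hxH⟩]
          have hxpq : (⟨x, hxH⟩ : H) = p ∨ (⟨x, hxH⟩ : H) = q := by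
            by_contra hc
            push Not at hc
            apply Indep.not_mem_line h hH.indep hpH hqH hxH (Ne.symm hqp)
              (fun he' => hc.1 (Subtype.ext he'.symm)) (fun he' => hc.2 (Subtype.ext he'.symm))
            rw [hlpq]
            exact hx
          rcases hxpq with he | he
          · rw [he]; exact h'.left_mem hfne
          · rw [he]; exact h'.right_mem hfne
        · have hpi : pi L H x p = q := by
            apply pi_eq_of_mem h hH hxH hqp'
            show x ∈ lineOf L p0 q0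
            rw [hlpq]
            exact hx
          have h1 := mem_line_pi h' hH' (eO hxH) (f p)
          rw [eP hxH, hpi] at h1
          exact h1
      have : l.image E = lineOf L' ((f p : H') : β) (f q : H') :=
        Finset.eq_of_subset_of_card_le hsub (by rw [hcardimg l hl, h'.card_line hm])
      rw [this]
      exact hm
    · push Not at hmeet
      -- external line
      have hlcard := h.card_line hl
      obtain ⟨x1, x2, hx1, hx2, hx12⟩ : ∃ x1 x2, x1 ∈ l ∧ x2 ∈ l ∧ x1 ≠ x2 := by
        have : 1 < l.card := by omega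
        obtain ⟨a, ha, b, hb, hab⟩ := one_lt_card.mp this
        exact ⟨a, b, ha, hb, hab⟩
      have hneq : ∀ x ∈ l, ∀ x' ∈ l, x ≠ x' → ∀ p : H, pi L H x p ≠ pi L H x' p := by
        intro x hx x' hx' hne p he
        have h1 := mem_line_pi h hH (hmeet x hx) p
        have h2 := mem_line_pi h hH (hmeet x' hx') p
        rw [← he] at h2
        have hp : (p : α) ≠ (pi L H x p : H) := fun he' => (pi_ne h hH (hmeet x hx) p) (Subtype.ext he'.symm)
        have h3 := h.line_unique hne (h.lineOf_mem hp) hl h1 h2 hx hx'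
        exact hmeet p (h3 ▸ h.left_mem hp) p.2
      set y1 := e x1 with hy1
      set y2 := e x2 with hy2
      have hy12 : y1 ≠ y2 := fun he => hx12 (hinj he)
      set m := lineOf L' y1 y2 with hm
      have hmL : m ∈ L' := h'.lineOf_mem hy12
      have hy1H := eO (hmeet x1 hx1)
      have hy2H := eO (hmeet x2 hx2)
      have hy1m : y1 ∈ m := h'.left_mem hy12
      have hy2m : y2 ∈ m := h'.right_mem hy12
      -- m is external
      have hmext : ∀ q ∈ m, q ∉ H' := by
        intro q hqm hqH
        obtain ⟨r, hrH, hrq, hrm⟩ := hH'.exists_other h' hqH hmL hqm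
        have hqr : q ≠ r := Ne.symm hrq
        have hml : lineOf L' q r = m := h'.lineOf_eq hqr hmL hqm hrm
        have e1 : pi L' H' y1 ⟨q, hqH⟩ = ⟨r, hrH⟩ := by
          apply pi_eq_of_mem h' hH' hy1H
          · exact fun he => hrq (congrArg Subtype.val he)
          · show y1 ∈ lineOf L' q r
            rw [hml]; exact hy1m
        have e2 : pi L' H' y2 ⟨q, hqH⟩ = ⟨r, hrH⟩ := by
          apply pi_eq_of_mem h' hH' hy2H
          · exact fun he => hrq (congrArg Subtype.val he)
          · show y2 ∈ lineOf L' q r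
            rw [hml]; exact hy2m
        have e3 := (he2 x1 (hmeet x1 hx1)).2 ⟨q, hqH⟩
        have e4 := (he2 x2 (hmeet x2 hx2)).2 ⟨q, hqH⟩
        apply hneq x1 hx1 x2 hx2 hx12 (f.symm ⟨q, hqH⟩)
        apply f.injective
        rw [← e3, ← e4]
        exact e1.trans e2.symm
      have hneq' : ∀ y ∈ m, ∀ y' ∈ m, y ≠ y' → ∀ q : H', pi L' H' y q ≠ pi L' H' y' q := by
        intro y hy y' hy' hne q he
        have h1 := mem_line_pi h' hH' (hmext y hy) q
        have h2 := mem_line_pi h' hH' (hmext y' hy') q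
        rw [← he] at h2
        have hp : (q : β) ≠ (pi L' H' y q : H') := fun he' => (pi_ne h' hH' (hmext y hy) q) (Subtype.ext he'.symm)
        have h3 := h'.line_unique hne (h'.lineOf_mem hp) hmL h1 h2 hy hy'
        exact hmext q (h3 ▸ h'.left_mem hp) q.2
      -- transport to `Fin 6`
      have hc6 : Fintype.card H' = Fintype.card (Fin 6) := by
        rw [Fintype.card_coe, hH'.card, Fintype.card_fin]
      let τ : H' ≃ Fin 6 := Fintype.equivOfCardEq hc6
      let cj : β → Fin 6 → Fin 6 := fun y i => τ (pi L' H' y (τ.symm i))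
      have cjSyn : ∀ y, y ∉ H' → IsSyn (cj y) := by
        intro y hy i
        constructor
        · simp only [cj, Equiv.symm_apply_apply, pi_pi h' hH' hy, Equiv.apply_symm_apply]
        · simp only [cj]
          intro he
          apply pi_ne h' hH' hy (τ.symm i)
          rw [← Equiv.eq_symm_apply] at he
          exact he
      have cjInj : ∀ y y', y ∉ H' → y' ∉ H' → cj y = cj y' → y = y' := by
        intro y y' hy hy' he
        apply pi_inj h' hH' hy hy'
        intro q
        have := congrFun he (τ q)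
        simp only [cj, Equiv.symm_apply_apply] at this
        exact τ.injective this
      have cjDj : ∀ y y', (∀ q : H', pi L' H' y q ≠ pi L' H' y' q) → SynDj (cj y) (cj y') := by
        intro y y' hh i he
        exact hh (τ.symm i) (τ.injective he)
      let T : Finset (Fin 6 → Fin 6) := (l.image E).image cj
      let T' : Finset (Fin 6 → Fin 6) := m.image cj
      have hEext : ∀ y ∈ l.image E, y ∉ H' := by
        intro y hy
        obtain ⟨x, hx, rfl⟩ := mem_image.mp hy
        exact eO (hmeet x hx)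
      have hTcard : T.card = 5 := by
        rw [card_image_of_injOn, hcardimg l hl]
        intro a ha b hb hab
        exact cjInj a b (hEext a (mem_coe.mp ha)) (hEext b (mem_coe.mp hb)) hab
      have hT'card : T'.card = 5 := by
        rw [card_image_of_injOn, h'.card_line hmL]
        intro a ha b hb hab
        exact cjInj a b (hmext a (mem_coe.mp ha)) (hmext b (mem_coe.mp hb)) hab
      have hTT' : T = T' := by
        apply clique_unique hTcard hT'card
          (a := cj y1) (b := cj y2)
        · intro s hs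
          obtain ⟨y, hy, rfl⟩ := mem_image.mp hs
          exact cjSyn y (hEext y hy)
        · intro s hs
          obtain ⟨y, hy, rfl⟩ := mem_image.mp hs
          exact cjSyn y (hmext y hy)
        · intro s hs t ht hst
          obtain ⟨y, hy, rfl⟩ := mem_image.mp hs
          obtain ⟨y', hy', rfl⟩ := mem_image.mp ht
          obtain ⟨x, hx, rfl⟩ := mem_image.mp hy
          obtain ⟨x', hx', rfl⟩ := mem_image.mp hy'
          have hxx : x ≠ x' := by
            rintro rfl
            exact hst rfl
          apply cjDj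
          intro q he
          rw [hEe, hEe] at he
          have e3 := (he2 x (hmeet x hx)).2 q
          have e4 := (he2 x' (hmeet x' hx')).2 q
          rw [e3, e4] at he
          exact hneq x hx x' hx' hxx _ (f.injective he)
        · intro s hs t ht hst
          obtain ⟨y, hy, rfl⟩ := mem_image.mp hs
          obtain ⟨y', hy', rfl⟩ := mem_image.mp ht
          have hyy : y ≠ y' := by
            rintro rfl
            exact hst rfl
          exact cjDj _ _ (hneq' y hy y' hy' hyy)
        · exact mem_image_of_mem cj (mem_image.mpr ⟨x1, hx1, rfl⟩)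
        · exact mem_image_of_mem cj hy1m
        · exact mem_image_of_mem cj (mem_image.mpr ⟨x2, hx2, rfl⟩)
        · exact mem_image_of_mem cj hy2m
        · intro he
          exact hy12 (cjInj _ _ hy1H hy2H he)
      have hsub : l.image E ⊆ m := by
        intro y hy
        have h1 : cj y ∈ T := mem_image_of_mem cj hy
        rw [hTT'] at h1
        obtain ⟨w, hw, hwy⟩ := mem_image.mp h1
        have := cjInj _ _ (hmext w hw) (hEext y hy) hwy
        rwa [← this]
      have : l.image E = m :=
        Finset.eq_of_subset_of_card_le hsub (by rw [hcardimg l hl, h'.card_line hmL])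
      rw [this]
      exact hmL
  refine ⟨E, eH, ?_⟩
  -- equality by counting
  have hsubF : (linesF L).image (fun b => b.image E) ⊆ linesF L' := by
    intro t ht
    obtain ⟨l, hl, rfl⟩ := mem_image.mp ht
    exact mem_linesF.mpr (hline l (mem_linesF.mp hl))
  have hcF : ((linesF L).image (fun b => b.image E)).card = 21 := by
    rw [card_image_of_injective, h.card_lines]
    exact image_injective E.injective
  have heqF := Finset.eq_of_subset_of_card_le hsubF (by rw [hcF, h'.card_lines])
  ext t
  constructor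
  · rintro ⟨l, hl, rfl⟩
    exact hline l hl
  · intro ht
    have : t ∈ (linesF L).image (fun b => b.image E) := by
      rw [heqF]
      exact mem_linesF.mpr ht
    obtain ⟨l, hl, rfl⟩ := mem_image.mp this
    exact ⟨l, mem_linesF.mp hl, rfl⟩

end Extend

/-- Two line-preserving permutations agreeing on a hyperoval are equal. -/
theorem Plane.eq_of_agree (h : Plane L) (hH : Hyper L H) {g g' : α ≃ α}
    (hg : ∀ l ∈ L, l.image g ∈ L) (hg' : ∀ l ∈ L, l.image g' ∈ L) (he : ∀ p ∈ H, g p = g' p) :
    g = g' := by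
  classical
  ext x
  by_cases hx : x ∈ H
  · exact he x hx
  obtain ⟨p1⟩ := hH.nonempty
  set p2 := pi L H x p1 with hp2
  obtain ⟨p3, h31, h32⟩ := exists_third hH p1 p2
  set p4 := pi L H x p3 with hp4
  have h12 : (p1 : α) ≠ p2 := fun he' => (pi_ne h hH hx p1) (Subtype.ext he'.symm)
  have h34 : (p3 : α) ≠ p4 := fun he' => (pi_ne h hH hx p3) (Subtype.ext he'.symm)
  have hx1 : x ∈ lineOf L (p1 : α) p2 := mem_line_pi h hH hx p1
  have hx2 : x ∈ lineOf L (p3 : α) p4 := mem_line_pi h hH hx p3
  have hn : (p3 : α) ∉ lineOf L (p1 : α) p2 :=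
    Indep.not_mem_line h hH.indep p1.2 p2.2 p3.2 h12 (fun he' => h31 (Subtype.ext he'.symm))
      (fun he' => h32 (Subtype.ext he'.symm))
  have hA := h.lineOf_mem h12
  have hB := h.lineOf_mem h34
  have img : ∀ (k k' : α ≃ α), (∀ p ∈ H, k p = k' p) → (∀ l ∈ L, l.image k ∈ L) → (∀ l ∈ L, l.image k' ∈ L) →
      ∀ (a b : H), (a : α) ≠ b → (lineOf L (a : α) b).image k = (lineOf L (a : α) b).image k' := by
    intro k k' hk hkL hkL' a b hab
    have hline := h.lineOf_mem hab
    have hne : k a ≠ k b := fun hh => hab (k.injective hh)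
    apply h.line_unique hne (hkL _ hline) (hkL' _ hline)
    · exact mem_image_of_mem _ (h.left_mem hab)
    · exact mem_image_of_mem _ (h.right_mem hab)
    · rw [hk a a.2]; exact mem_image_of_mem _ (h.left_mem hab)
    · rw [hk b b.2]; exact mem_image_of_mem _ (h.right_mem hab)
  have i1 := img g g' he hg hg' p1 p2 h12
  have i2 := img g g' he hg hg' p3 p4 h34
  have m1 : g x ∈ (lineOf L (p1 : α) p2).image g := mem_image_of_mem _ hx1
  have m2 : g x ∈ (lineOf L (p3 : α) p4).image g := mem_image_of_mem _ hx2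
  have m3 : g' x ∈ (lineOf L (p1 : α) p2).image g := by rw [i1]; exact mem_image_of_mem _ hx1
  have m4 : g' x ∈ (lineOf L (p3 : α) p4).image g := by rw [i2]; exact mem_image_of_mem _ hx2
  have hlne : (lineOf L (p1 : α) p2).image g ≠ (lineOf L (p3 : α) p4).image g := by
    intro hh
    apply hn
    have : g p3 ∈ (lineOf L (p1 : α) p2).image g := by
      rw [hh]
      exact mem_image_of_mem _ (h.left_mem h34)
    obtain ⟨w, hw, hwe⟩ := mem_image.mp this
    rwa [← g.injective hwe]
  exact (h.eq_of_two (hg _ hA) (hg _ hB) hlne m1 m2 m3 m4).symm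

end Cfsg.Agent.Lib.Plane4
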